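import Cfsg.Agent.Lib.RootGroups.Transvection

/-!
In a degenerate class no rank one pair has the same commuting partners on both sides
(Timmesfeld, II (2.13)).
-/

set_option autoImplicit false
set_option linter.style.haveILetI false

namespace CfsgLib.RootGroups

open Cfsg

variable {G : Type*} [Group G] {S : Set (Subgroup G)}

theorem exists_good_partner (hS : IsRootSubgroupClass S)
    {A B C : Subgroup G} (hA : A ∈ S) (hB : B ∈ S) (hp : IsRankOnePair A B)
    (hC : C ∈ commutingPartners S A) :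
    ∀ P ∈ S, ∃ E ∈ S, IsRankOnePair P E ∧ ¬ SameBlock S P E := by
  suffices h : ∃ P ∈ S, ∃ E ∈ S, IsRankOnePair P E ∧ ¬ SameBlock S P E by
    obtain ⟨P, hP, E, hE, hpe, hne⟩ := h
    intro Q hQ
    obtain ⟨g, rfl⟩ := hS.2.2 P hP Q hQ
    refine ⟨conjBy E g, hS.1.conj_mem E hE g, isRankOnePair_conjBy hpe g, fun hb => hne ?_⟩
    have := hb.conj hS.1 g⁻¹
    rwa [conjBy_inv_cancel, conjBy_inv_cancel] at this
  by_contra hall
  push Not at hall
  have hconn := (Cfsg.Agent.S5032.result hS.1 ⟨A, hA, B, hB, hp.ne⟩).2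
    ⟨hS.2, A, hA, (not_isolated_iff hA).2 ⟨B, hB, hp⟩⟩ A hA C hC.1
  have hrel : ∀ P, Relation.ReflTransGen (FAdj S) A P → SameBlock S A P := by
    intro P hP
    induction hP with
    | refl => rfl
    | tail _ hadj ih =>
      exact Eq.trans ih (hall _ hadj.1 _ hadj.2.1 hadj.2.2)
  have : SameBlock S A C := hrel C hconn
  exact not_sameBlock_of_commuting hA hC this

variable (hS : IsRootSubgroupSet S) (hdeg : IsDegenerateRootSet S) {A B : Subgroup G}
  (hA : A ∈ S) (hB : B ∈ S) (hp : IsRankOnePair A B) (hAB : SameBlock S A B)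
include hS hdeg hA hB hp hAB

omit hdeg hA hB hp in
theorem bad_block {g : G} (hg : g ∈ A ⊔ B) : SameBlock S (conjBy A g) A := by
  have key : ∀ x ∈ (A : Set G) ∪ B, SameBlock S (conjBy A x) A := by
    rintro x (hx | hx)
    · rw [conjBy_of_mem hx]; rfl
    · have := hAB.conj hS x
      rw [conjBy_of_mem hx] at this
      exact this.trans hAB.symm
  rw [Subgroup.sup_eq_closure] at hg
  induction hg using Subgroup.closure_induction'' with
  | one => rw [conjBy_one]; rfl
  | mul x y _ _ hx hy =>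
    rw [← conjBy_conjBy]
    exact (hy.conj hS x).trans hx
  | mem x hx => exact key x hx
  | inv_mem x hx =>
    exact key x⁻¹ (hx.elim (fun h => Or.inl (A.inv_mem h)) fun h => Or.inr (B.inv_mem h))

omit hdeg hA hB hp hS in
theorem bad_fix {P : Subgroup G} (hP : P ∈ commutingPartners S A) {g : G} (hg : g ∈ A ⊔ B) :
    ∀ x ∈ P, Commute g x := by
  intro x hx
  refine (commute_of_sup (g := x) (fun a ha => ?_) (fun b hb => ?_) g hg).symm
  · exact (commutator_eq_bot_iff_forall_commute.1 hP.2.2 a ha x hx).symm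
  · rw [show commutingPartners S A = commutingPartners S B from hAB] at hP
    exact (commutator_eq_bot_iff_forall_commute.1 hP.2.2 b hb x hx).symm

omit hA hp in
/-- Every element of `⟨A, B⟩` moves the block of a good partner as some element of `A` does. -/
theorem bad_tau {E : Subgroup G} (hE : E ∈ S) (hpe : IsRankOnePair A E)
    (hne : ¬ SameBlock S A E) {g : G} (hg : g ∈ A ⊔ B) :
    ∀ α ∈ A, ∃ α' ∈ A, SameBlock S (conjBy E (g * α)) (conjBy E α') := by
  have hEB : E ≠ B := fun e => hne (e ▸ hAB)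
  have hpb : IsRankOnePair B E := by
    refine (commuting_or_rankOne hS hdeg hB hE hEB).resolve_left fun hc => ?_
    rw [← show commutingPartners S A = commutingPartners S B from hAB] at hc
    exact commutator_ne_bot hpe hc.2.2
  have hblock : ∀ {a e p : G}, Paired A E a e → Paired B E p e →
      SameBlock S (conjBy E a⁻¹) (conjBy E p⁻¹) := by
    intro a e p h1 h2
    have := hAB.conj hS e⁻¹
    rwa [h1.2.2.2.2, h2.2.2.2.2] at this
  have hB1 : ∀ g ∈ B, ∃ α ∈ A, SameBlock S (conjBy E g) (conjBy E α) := by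
    intro g hg
    rcases eq_or_ne g 1 with rfl | hg1
    · exact ⟨1, A.one_mem, rfl⟩
    obtain ⟨e, he⟩ := exists_paired hpb (B.inv_mem hg) (inv_ne_one.2 hg1)
    obtain ⟨a, ha⟩ := exists_paired_right hpe he.2.2.1 he.2.2.2.1
    have := hblock ha he
    rw [inv_inv] at this
    exact ⟨a⁻¹, A.inv_mem ha.1, this.symm⟩
  have key : ∀ x ∈ (A : Set G) ∪ B, ∀ α ∈ A,
      ∃ α' ∈ A, SameBlock S (conjBy E (x * α)) (conjBy E α') := by
    rintro x (hx | hx) α hα
    · exact ⟨x * α, A.mul_mem hx hα, rfl⟩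
    rcases eq_or_ne α 1 with rfl | hα1
    · rw [mul_one]; exact hB1 x hx
    obtain ⟨e, he⟩ := exists_paired hpe (A.inv_mem hα) (inv_ne_one.2 hα1)
    obtain ⟨p, hpp⟩ := exists_paired_right hpb he.2.2.1 he.2.2.2.1
    have h := (hblock he hpp).conj hS x
    rw [inv_inv, conjBy_conjBy, conjBy_conjBy] at h
    obtain ⟨α', hα', h'⟩ := hB1 (x * p⁻¹) (B.mul_mem hx (B.inv_mem hpp.1))
    exact ⟨α', hα', h.trans h'⟩
  rw [Subgroup.sup_eq_closure] at hg
  induction hg using Subgroup.closure_induction'' with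
  | one => exact fun α hα => ⟨α, hα, by rw [one_mul]; rfl⟩
  | mul x y _ _ hx hy =>
    intro α hα
    obtain ⟨α', hα', h⟩ := hy α hα
    obtain ⟨α'', hα'', h'⟩ := hx α' hα'
    refine ⟨α'', hα'', ?_⟩
    have h2 := h.conj hS x
    rw [conjBy_conjBy, conjBy_conjBy, ← mul_assoc] at h2
    exact h2.trans h'
  | mem x hx => exact key x hx
  | inv_mem x hx =>
    exact key x⁻¹ (hx.elim (fun h => Or.inl (A.inv_mem h)) fun h => Or.inr (B.inv_mem h))

/-- The actions of `⟨A, B⟩` and of `A` on the block of a good partner commute. -/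
theorem bad_commute {E : Subgroup G} (hE : E ∈ S) (hpe : IsRankOnePair A E)
    (hne : ¬ SameBlock S A E) {g : G} (hg : g ∈ A ⊔ B) {a : G} (ha : a ∈ A) :
    SameBlock S (conjBy E (g * a)) (conjBy E (a * g)) := by
  haveI := hS.commutative A hA
  rcases eq_or_ne a 1 with rfl | ha1
  · rw [mul_one, one_mul]; rfl
  obtain ⟨C, hC, hCE⟩ := exists_mixed hS hdeg hA hE hpe hne
  have hAC := commutator_eq_bot_iff_forall_commute.1 hC.2.2
  obtain ⟨b, hb⟩ := exists_paired hpe (A.inv_mem ha) (inv_ne_one.2 ha1)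
  obtain ⟨c', hc'⟩ := exists_paired_right hCE hb.2.2.1 hb.2.2.2.1
  set c := c'⁻¹ with hcdef
  have hc : c ∈ C := C.inv_mem hc'.1
  have hbase : conjBy E a ∈ commutingPartners S (conjBy E c) := by
    have h := commutingPartners_conjBy hS (mem_commutingPartners_symm hA hC) b⁻¹
    rwa [hb.2.2.2.2, hc'.2.2.2.2, inv_inv, ← hcdef] at h
  obtain ⟨α₀, hα₀, h0⟩ := bad_tau hS hdeg hB hAB hE hpe hne hg 1 A.one_mem
  rw [mul_one] at h0
  obtain ⟨α', hα', h'⟩ := bad_tau hS hdeg hB hAB hE hpe hne hg a ha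
  have hgc : g * c = c * g := (bad_fix hAB hC hg c hc).eq
  have h1 := commutingPartners_conjBy hS hbase g
  rw [conjBy_conjBy, conjBy_conjBy, hgc] at h1
  have h2 := h0.conj hS c
  rw [conjBy_conjBy, conjBy_conjBy] at h2
  rw [show commutingPartners S (conjBy E (c * g)) = commutingPartners S (conjBy E (c * α₀)) from h2]
    at h1
  have h3 := mem_commutingPartners_symm (hS.conj_mem E hE _) h1
  rw [show commutingPartners S (conjBy E (g * a)) = commutingPartners S (conjBy E α') from h'] at h3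
  have h4 := commutingPartners_conjBy hS h3 α₀⁻¹
  rw [conjBy_conjBy, conjBy_conjBy, ← (hAC α₀ hα₀ c hc).eq, inv_mul_cancel_left] at h4
  have hk : α₀⁻¹ * α' ∈ A := A.mul_mem (A.inv_mem hα₀) hα'
  have heq : α₀⁻¹ * α' = a := by
    by_contra hcon
    have hne2 : conjBy E (α₀⁻¹ * α') ≠ conjBy E a := fun e =>
      hcon (conjBy_right_inj hpe hk ha e)
    have hsup := sup_eq_of_mem hpe (conjBy_right_mem hpe hk) (conjBy_right_mem hpe ha) hne2
    have hcomm : ⁅A, conjBy E c⁆ = ⊥ := by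
      refine commutator_eq_bot_iff_forall_commute.2 fun x hx e he => ?_
      have hxmem : x ∈ conjBy E (α₀⁻¹ * α') ⊔ conjBy E a := by
        rw [hsup]; exact Subgroup.mem_sup_left hx
      refine (commute_of_sup (g := e) (fun y hy => ?_) (fun y hy => ?_) x hxmem).symm
      · exact (commutator_eq_bot_iff_forall_commute.1 h4.2.2 y hy e he).symm
      · exact commutator_eq_bot_iff_forall_commute.1 hbase.2.2 e he y hy
    have h5 := isRankOnePair_conjBy hpe c
    rw [conjBy_of_commute fun x hx => (hAC x hx c hc).symm] at h5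
    exact commutator_ne_bot h5 hcomm
  have h6 := h0.conj hS a
  rw [conjBy_conjBy, conjBy_conjBy] at h6
  refine h'.trans ?_
  rw [inv_mul_eq_iff_eq_mul] at heq
  rw [heq, (commute_of_isMulCommutative hα₀ ha).eq]
  exact h6.symm

/-- Commutators of `⟨A, B⟩` fix every block. -/
theorem bad_commutator {x y : G} (hx : x ∈ A ⊔ B) (hy : y ∈ A ⊔ B) {P : Subgroup G}
    (hP : P ∈ S) : SameBlock S (conjBy P (x * y)) (conjBy P (y * x)) := by
  haveI := hS.commutative A hA
  have hxy := Subgroup.mul_mem _ hx hy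
  have hyx := Subgroup.mul_mem _ hy hx
  by_cases hb : SameBlock S A P
  · exact ((hb.conj hS _).symm.trans (bad_block hS hAB hxy)).trans
      ((hb.conj hS _).symm.trans (bad_block hS hAB hyx)).symm
  have hPA : P ≠ A := fun e => hb (e ▸ rfl)
  rcases commuting_or_rankOne hS hdeg hA hP hPA with hc | hpe
  · rw [conjBy_of_commute (bad_fix hAB hc hxy), conjBy_of_commute (bad_fix hAB hc hyx)]
    rfl
  obtain ⟨α, hα, h1⟩ := bad_tau hS hdeg hB hAB hP hpe hb hx 1 A.one_mem
  obtain ⟨β, hβ, h2⟩ := bad_tau hS hdeg hB hAB hP hpe hb hy 1 A.one_mem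
  rw [mul_one] at h1 h2
  have key : ∀ {x α : G} (y : G), x ∈ A ⊔ B → α ∈ A → SameBlock S (conjBy P x) (conjBy P α) →
      ∀ {β}, β ∈ A → SameBlock S (conjBy P y) (conjBy P β) →
      SameBlock S (conjBy P (x * y)) (conjBy P (β * α)) := by
    intro x α y hx hα h1 β hβ h2
    have e1 := h2.conj hS x
    have e2 := h1.conj hS β
    rw [conjBy_conjBy, conjBy_conjBy] at e1 e2
    exact (e1.trans (bad_commute hS hdeg hA hB hp hAB hP hpe hb hx hβ)).trans e2
  refine (key y hx hα h1 hβ h2).trans ?_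
  rw [(commute_of_isMulCommutative hβ hα).eq]
  exact (key x hy hβ h2 hα h1).symm

/-- There is no bad pair. -/
theorem bad_false (hgood : ∀ P ∈ S, ∃ E ∈ S, IsRankOnePair P E ∧ ¬ SameBlock S P E)
    (hbig : 3 < ENat.card A) : False := by
  haveI := hS.commutative A hA
  have hAu := left_mem_unipotent A B
  let K : Subgroup G :=
    { carrier := {g | ∀ P ∈ S, SameBlock S (conjBy P g) P}
      one_mem' := fun P _ => by rw [conjBy_one]; rfl
      mul_mem' := fun {g h} hg hh P hP => by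
        rw [← conjBy_conjBy]
        exact (hg _ (hS.conj_mem P hP h)).trans (hh P hP)
      inv_mem' := fun {g} hg P hP => by
        have := hg _ (hS.conj_mem P hP g⁻¹)
        rw [conjBy_cancel_inv] at this
        exact this.symm }
  have hKn : ∀ h, ∀ g ∈ K, h * g * h⁻¹ ∈ K := by
    intro h g hg P hP
    have := (hg _ (hS.conj_mem P hP h⁻¹)).conj hS h
    rwa [conjBy_cancel_inv, conjBy_conjBy, conjBy_conjBy] at this
  have hcom : ∀ {x y}, x ∈ A ⊔ B → y ∈ A ⊔ B → x * y * x⁻¹ * y⁻¹ ∈ K := by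
    intro x y hx hy P hP
    have h := bad_commutator hS hdeg hA hB hp hAB hx hy (hS.conj_mem P hP (x⁻¹ * y⁻¹))
    rw [conjBy_conjBy, conjBy_conjBy, show y * x * (x⁻¹ * y⁻¹) = 1 by group, conjBy_one,
      show x * y * (x⁻¹ * y⁻¹) = x * y * x⁻¹ * y⁻¹ by group] at h
    exact h
  have hstab : ∀ g ∈ A ⊔ B, conjBy A g = A → ∀ x ∈ A, Commute g x := by
    intro g hg hgA x hx
    have h1 : g * x * g⁻¹ * x⁻¹ ∈ A :=
      A.mul_mem (hgA ▸ conj_mem_conjBy hx) (A.inv_mem hx)
    have h2 := hcom hg (Subgroup.mem_sup_left hx)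
    obtain ⟨E, hE, hpe, hne⟩ := hgood A hA
    have h3 := eq_one_of_conj_sameBlock hS hpe hne h1 (h2 E hE)
    exact mul_inv_eq_iff_eq_mul.1 (mul_inv_eq_one.1 h3)
  obtain ⟨E, hE, hpe, hne⟩ := hgood A hA
  have hsp := special_of_not_sameBlock hS hdeg hA hE hpe hne
  have hab : HasAbelianUnipotents A E := ⟨hS.commutative A hA, hS.commutative E hE⟩
  haveI := hab.2
  have hinv : ∀ a ∈ A, a * a = 1 → a = 1 := by
    intro a ha ha2
    by_contra ha1
    have ha2' : a ^ 2 = 1 := by rw [sq]; exact ha2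
    have ho : orderOf a = 2 := orderOf_eq_prime ha2' ha1
    have hall : ∀ x ∈ A, x * x = 1 := fun x hx => by
      have := pow_eq_one_of_torsion hsp hab ha ha1 (orderOf_pos_iff.1 (ho ▸ two_pos)) hx
      rwa [ho, sq] at this
    obtain ⟨u, hu, hu1, z, hz, hz1, hzu, -⟩ := exists_big hbig
    exact hzu (involution_unique hp hstab hz (hall z hz) hz1 hu (hall u hu) hu1)
  obtain ⟨c, hc, hc3⟩ : ∃ c ∈ A, c ^ 3 ≠ 1 := by
    by_contra h
    push Not at h
    exact not_exponent_three hp hstab hinv hbig h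
  have hc1 : c ≠ 1 := fun e => hc3 (by rw [e, one_pow])
  have hc18 : c ^ 18 ≠ 1 := by
    intro h
    have hfin : IsOfFinOrder c := isOfFinOrder_iff_pow_eq_one.2 ⟨18, by norm_num, h⟩
    have hpr := prime_orderOf hsp hab hc hc1 hfin
    have hdvd : orderOf c ∣ 2 * (3 * 3) := orderOf_dvd_of_pow_eq_one h
    rcases (Nat.Prime.dvd_mul hpr).1 hdvd with h2 | h2
    · exact hc1 (hinv c hc (by rw [← sq]; exact orderOf_dvd_iff_pow_eq_one.1 h2))
    · exact hc3 (orderOf_dvd_iff_pow_eq_one.1 (((Nat.Prime.dvd_mul hpr).1 h2).elim id id))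
  -- an element of `K` commuting with its conjugate under `a = c³`
  obtain ⟨j, hj, hjA, hjB⟩ := exists_swap hp hstab
  have hcX : c ∈ A ⊔ B := Subgroup.mem_sup_left hc
  set t := c * j * c⁻¹ * j⁻¹ with htdef
  have ht : SquaresIn A B t := SquaresIn.mul hp hstab hinv (hj.conj hcX) hj.inv
  have htK : t ∈ K := hcom hcX hj.1
  have htA : conjBy A t ≠ A := by
    intro e
    have hjA' : conjBy A j⁻¹ = B := by rw [conjBy_eq_iff, inv_inv, hjB]
    rw [htdef, ← conjBy_conjBy, ← conjBy_conjBy, ← conjBy_conjBy, hjA', conjBy_eq_iff,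
      conjBy_of_mem (A.inv_mem hc), conjBy_eq_iff, hjA'] at e
    exact hc1 (inv_eq_one.1 (eq_one_of_mem_normalizer hp (A.inv_mem hc) e))
  set a := c ^ 3 with hadef
  have ha : a ∈ A := A.pow_mem hc 3
  have hcomm : Commute t (a * t * a⁻¹) := commute_conj_cube hp hstab hinv hc hc1 ht htA
  have ha2 : a ^ 2 ≠ 1 := fun h => hc18 (by
    rw [show (18 : ℕ) = 3 * 2 * 3 from rfl, pow_mul, pow_mul, ← hadef, h, one_pow])
  obtain ⟨b, hb⟩ := exists_paired hpe ha hc3
  obtain ⟨u, hu, hub⟩ := pow_paired hsp hab hb ha2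
  rw [sq] at hu hub
  -- the pairing of `A ^ k` with `E`
  have hpairK : ∀ k ∈ K, ∀ {p e : G}, Paired A E p e →
      Paired (conjBy A k) E (k * p * k⁻¹) e := by
    intro k hk p e hpe'
    have hPA : SameBlock S (conjBy A k) A := hk A hA
    have hPne : ¬ SameBlock S (conjBy A k) E := fun h => hne (hPA.symm.trans h)
    have hPE : IsRankOnePair (conjBy A k) E := by
      refine (commuting_or_rankOne hS hdeg (hS.conj_mem A hA k) hE
        fun e' => hPne (e' ▸ rfl)).resolve_left fun hh => ?_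
      rw [show commutingPartners S (conjBy A k) = commutingPartners S A from hPA] at hh
      exact commutator_ne_bot hpe hh.2.2
    obtain ⟨q, hq⟩ := exists_paired_right hPE hpe'.2.2.1 hpe'.2.2.2.1
    have h1 : SameBlock S (conjBy E q⁻¹) (conjBy E p⁻¹) := by
      have := hPA.conj hS e⁻¹
      rwa [hq.2.2.2.2, hpe'.2.2.2.2] at this
    have h2 : SameBlock S (conjBy E (k * p * k⁻¹)⁻¹) (conjBy E p⁻¹) := by
      have e1 := (((K.inv_mem hk) E hE).conj hS p⁻¹).conj hS k
      simp only [conjBy_conjBy] at e1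
      rw [show (k * p * k⁻¹)⁻¹ = k * p⁻¹ * k⁻¹ by group, mul_assoc]
      refine e1.trans ?_
      have e2 := hk _ (hS.conj_mem E hE p⁻¹)
      rwa [conjBy_conjBy] at e2
    have h12 : SameBlock S (conjBy E q⁻¹) (conjBy E (k * p * k⁻¹)⁻¹) := h1.trans h2.symm
    have h3 := h12.conj hS (k * p * k⁻¹)
    rw [conjBy_cancel_inv, conjBy_conjBy] at h3
    have h4 := eq_one_of_conj_sameBlock hS hPE hPne
      (Subgroup.mul_mem _ (conj_mem_conjBy hpe'.1) (Subgroup.inv_mem _ hq.1)) h3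
    rw [mul_inv_eq_one.1 h4]
    exact hq
  have hρ : ∀ k ∈ K, ∀ {p e : G}, Paired A E p e →
      conjBy A (p * e⁻¹ * p * k) = conjBy E (p * (p * k * p⁻¹ * k⁻¹) * p⁻¹) := by
    intro k hk p e hpe'
    have h := (hpairK (p * k * p⁻¹) (hKn p k hk) hpe').2.2.2.2
    calc conjBy A (p * e⁻¹ * p * k)
        = conjBy (conjBy (conjBy A (p * k * p⁻¹)) e⁻¹) p := by
          conv_rhs => rw [← conjBy_conjBy A (p * k) p⁻¹, conjBy_of_mem (A.inv_mem hpe'.1),
            conjBy_conjBy, conjBy_conjBy]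
          simp only [mul_assoc]
      _ = _ := by rw [h, conjBy_conjBy]; group
  set k := a * (a * t * a⁻¹ * t) * a⁻¹ with hkdef
  have hkK : k ∈ K := hKn a _ (K.mul_mem (hKn a t htK) htK)
  set n := a * a * (a * a * t * (a * a)⁻¹ * t⁻¹) * (a * a)⁻¹ with hndef
  have hnK : n ∈ K := hKn _ _ (K.mul_mem (hKn _ t htK) (K.inv_mem htK))
  have hrho : a * (a * k * a⁻¹ * k⁻¹) * a⁻¹ = n := by
    rw [hkdef, hndef, show a * (a * (a * (a * t * a⁻¹ * t) * a⁻¹) * a⁻¹ *
      (a * (a * t * a⁻¹ * t) * a⁻¹)⁻¹) * a⁻¹ = a * a * (a * (a * t * a⁻¹) * a⁻¹ *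
      (a * t * a⁻¹ * t⁻¹) * (a * t * a⁻¹)⁻¹) * (a * a)⁻¹ by group, hcomm.symm.inv_right.eq]
    group
  set w := a * b⁻¹ * a with hwdef
  set w₀ := a * a * u⁻¹ * (a * a) with hw₀def
  have hwk : conjBy A (w * k) = conjBy E n := by rw [hwdef, hρ k hkK hb, hrho]
  have hw₀t : conjBy A (w₀ * t) = conjBy E n := by rw [hw₀def, hρ t htK hu, hndef]
  have hR : conjBy E n ≠ E := by
    intro e
    refine htA ((conjBy_inj (g := w₀)).1 ?_)
    rw [conjBy_conjBy, hw₀t, e, hw₀def, (weyl_swap hsp hu).1]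
  have hRE : IsRankOnePair E (conjBy E n) :=
    sameBlock_rankOne hS hdeg hE (hS.conj_mem E hE n) hR (hnK E hE).symm
  have hact : ∀ {p e k : G}, Paired A E p e → k ∈ K → ∀ α ∈ A,
      conjBy A (p * e⁻¹ * p * k) = conjBy E n →
      conjBy (conjBy E n) (p * e⁻¹ * p * α * (p * e⁻¹ * p)⁻¹)
        = conjBy E (α * (p * (p * k * p⁻¹ * k⁻¹) * p⁻¹) * α⁻¹) := by
    intro p e k hpe' hk α hα h
    have hw : ∀ g, conjBy A (g * α⁻¹) = conjBy A g := fun g => by
      rw [← conjBy_conjBy, conjBy_of_mem (A.inv_mem hα)]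
    rw [← h, conjBy_conjBy, show p * e⁻¹ * p * α * (p * e⁻¹ * p)⁻¹ * (p * e⁻¹ * p * k)
      = p * e⁻¹ * p * (α * k) by group, ← hw,
      show p * e⁻¹ * p * (α * k) * α⁻¹ = p * e⁻¹ * p * (α * k * α⁻¹) by group,
      hρ _ (hKn α k hk) hpe']
    have hc : α * p * α⁻¹ = p := by
      rw [(commute_of_isMulCommutative hα hpe'.1).eq, mul_inv_cancel_right]
    rw [show α * (p * (p * k * p⁻¹ * k⁻¹) * p⁻¹) * α⁻¹ = (α * p * α⁻¹) * ((α * p * α⁻¹) *
      (α * k * α⁻¹) * (α * p * α⁻¹)⁻¹ * (α * k * α⁻¹)⁻¹) * (α * p * α⁻¹)⁻¹ by group, hc]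
  have h1 := hact hb hkK a ha hwk
  have h2 := hact hu htK a ha hw₀t
  rw [hrho] at h1
  rw [← hndef, ← h1] at h2
  have hmem : ∀ {p e : G}, Paired A E p e →
      p * e⁻¹ * p * a * (p * e⁻¹ * p)⁻¹ ∈ E := fun h =>
    (weyl_swap hsp h).1 ▸ conj_mem_conjBy ha
  have hβ := conjBy_right_inj hRE (hmem hu) (hmem hb) h2
  have hright : ∀ {p e : G}, Paired A E p e → p * e⁻¹ * p * p * (p * e⁻¹ * p)⁻¹ = e⁻¹ := by
    intro p e h
    rw [show p * e⁻¹ * p * p * (p * e⁻¹ * p)⁻¹ = p * (e⁻¹ * p * e) * p⁻¹ by group,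
      hsp.2 p h.1 h.2.1 e h.2.2.1 h.2.2.2.1 h.2.2.2.2]
    group
  have e1 := hright hu
  have e2 : u⁻¹ = b⁻¹ * b⁻¹ := by
    have hsq : ∀ v x : G, v * (x * x) * v⁻¹ = (v * x * v⁻¹) * (v * x * v⁻¹) := fun v x => by group
    rw [← e1, hsq, hβ, hright hb]
  rw [← hub] at e2
  have h3 : u ^ 3 = 1 := by
    have : u * u * u * u = u := by
      have := congrArg (fun x => x⁻¹) e2
      simp only [inv_inv, mul_inv_rev] at this
      simpa [mul_assoc] using this.symm
    rw [pow_three']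
    simpa using this
  have h4 := (pow_eq_one_iff hsp hu 3).2 h3
  refine hc18 ?_
  rw [show (18 : ℕ) = 3 * 2 * 3 from rfl, pow_mul, pow_mul, sq, ← hadef]
  exact h4

end CfsgLib.RootGroups
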