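import Cfsg.Agent.Lib.RootGroups.Config

/-!
Classes of abstract root subgroups (Timmesfeld, II (2.11), (2.15)).
-/

set_option autoImplicit false
set_option linter.style.haveILetI false

namespace CfsgLib.RootGroups

open Cfsg

variable {G : Type*} [Group G] {S : Set (Subgroup G)}

theorem isSpecial_symm {A B : Subgroup G} (h : IsSpecialRankOnePair A B) :
    IsSpecialRankOnePair B A := by
  refine ⟨RankOnePair_symm h.1, fun b hb hb1 a ha ha1 he => ?_⟩
  have h2 := congrArg (fun y => y⁻¹) (h.2 a ha ha1 b hb hb1 he.symm)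
  simp only [mul_inv_rev, inv_inv, ← mul_assoc] at h2
  exact h2.symm

/-- In a special rank one group `b(a⁻¹) = b(a)⁻¹`. -/
theorem paired_inv {A B : Subgroup G} (h : IsSpecialRankOnePair A B) {a b : G}
    (hp : Paired A B a b) : Paired A B a⁻¹ b⁻¹ := by
  obtain ⟨ha, ha1, hb, hb1, he⟩ := hp
  refine ⟨A.inv_mem ha, inv_ne_one.2 ha1, B.inv_mem hb, inv_ne_one.2 hb1, ?_⟩
  rw [inv_inv, inv_inv]
  have hs := h.2 a ha ha1 b hb hb1 he
  have hAw : conjBy A (a * b⁻¹ * a) = B := by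
    rw [← conjBy_conjBy, conjBy_of_mem ha, ← conjBy_conjBy, he, conjBy_cancel_inv]
  have hw : a * b⁻¹ * a = b⁻¹ * a * b⁻¹ := by
    calc a * b⁻¹ * a = a * (b⁻¹ * a * b) * b⁻¹ := by group
      _ = a * (a⁻¹ * b⁻¹ * a) * b⁻¹ := by rw [hs]
      _ = _ := by group
  have hmem : a⁻¹ ∈ conjBy B (a * b⁻¹ * a) := by
    rw [mem_conjBy, hw]
    have : (b⁻¹ * a * b⁻¹)⁻¹ * a⁻¹ * (b⁻¹ * a * b⁻¹) = b := by
      calc (b⁻¹ * a * b⁻¹)⁻¹ * a⁻¹ * (b⁻¹ * a * b⁻¹)
          = b * a⁻¹ * b * (a⁻¹ * b⁻¹ * a) * b⁻¹ := by group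
        _ = b * a⁻¹ * b * (b⁻¹ * a * b) * b⁻¹ := by rw [hs]
        _ = b := by group
    rw [this]; exact hb
  have hwmem : a * b⁻¹ * a ∈ A ⊔ B :=
    Subgroup.mul_mem _ (Subgroup.mul_mem _ (Subgroup.mem_sup_left ha)
      (Subgroup.inv_mem _ (Subgroup.mem_sup_right hb))) (Subgroup.mem_sup_left ha)
  have hBw : conjBy B (a * b⁻¹ * a) = A := by
    by_contra hne
    have := inf_eq_bot_of_mem h.1 (conjBy_mem_unipotent (right_mem_unipotent h.1) hwmem)
      (left_mem_unipotent A B) hne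
    exact inv_ne_one.2 ha1 ((Subgroup.eq_bot_iff_forall _).1 this a⁻¹ ⟨hmem, A.inv_mem ha⟩)
  rw [hw, mul_assoc, ← conjBy_conjBy, ← conjBy_conjBy, conjBy_of_mem (B.inv_mem hb),
    conjBy_eq_iff, inv_inv] at hBw
  exact hBw.symm

theorem exists_partner (hc : IsConjClassOfSubgroups S) (hS : IsRootSubgroupSet S)
    {A₀ B₀ : Subgroup G} (hA₀ : A₀ ∈ S) (hB₀ : B₀ ∈ S) (hp : IsRankOnePair A₀ B₀)
    {A : Subgroup G} (hA : A ∈ S) : ∃ B ∈ S, IsRankOnePair A B := by
  obtain ⟨g, rfl⟩ := hc.2 A₀ hA₀ A hA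
  exact ⟨conjBy B₀ g, hS.conj_mem B₀ hB₀ g, isRankOnePair_conjBy hp g⟩

theorem exists_rcc_right (hc : IsConjClassOfSubgroups S) (hS : IsRootSubgroupSet S)
    {P Q : Subgroup G} (hP : P ∈ S) (hQ : Q ∈ S) (h : RootCommutatorCase S P Q)
    {A : Subgroup G} (hA : A ∈ S) : ∃ B ∈ S, RootCommutatorCase S A B := by
  obtain ⟨g, rfl⟩ := hc.2 P hP A hA
  exact ⟨conjBy Q g, hS.conj_mem Q hQ g, rootCommutatorCase_conjBy hS h g⟩

/-- In a non-degenerate class a rank one pair has a line through its first member with a member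
in the commutator case with the second, and it is special. -/
theorem nondeg_pair (hS : IsRootSubgroupClass S) (hnd : IsNondegenerateRootSet S)
    {A B : Subgroup G} (hA : A ∈ S) (hB : B ∈ S) (hp : IsRankOnePair A B) :
    (∃ C ∈ linePartners S A, RootCommutatorCase S B C ∧ RootCommutatorCase S A ⁅B, C⁆ ∧
      ⁅A, ⁅B, C⁆⁆ = C) ∧ IsSpecialRankOnePair A B := by
  obtain ⟨P, hP, Q, hQ, hPQ⟩ := hnd.2.2
  obtain ⟨Q', -, h⟩ := exists_rcc_right hS.2 hS.1 hP hQ hPQ hA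
  obtain ⟨T, hT, h1, h2, h3, -⟩ :=
    line_structure hS.1 hA hB hp (rcc_linePartners hS.1 hA hB hp h).2
  have hTline : T ∈ linePartners S A := by
    have := (rcc_linePartners hS.1 hA hB hp h2).2
    rwa [h3] at this
  refine ⟨⟨T, hTline, h1, h2, h3⟩, isSpecial_symm ?_⟩
  have hc : ⁅T, B⁆ = ⁅B, T⁆ := Subgroup.commutator_comm T B
  exact config_special hS.1 hT.1 hB hA hc (rootCommutatorCase_symm h1) h2 h3

theorem mem_centralizingMembers_iff {A E : Subgroup G} :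
    E ∈ centralizingMembers S A ↔ E ∈ S ∧ ⁅E, A⁆ = ⊥ := by
  rw [Subgroup.commutator_eq_bot_iff_le_centralizer]
  exact Iff.rfl

/-- Inclusion of centralizing members, resp. of partners, passes to conjugates. -/
theorem centralizing_subset_conj (hS : IsRootSubgroupSet S) {A C : Subgroup G}
    (h : centralizingMembers S A ⊆ centralizingMembers S C) (g : G) :
    centralizingMembers S (conjBy A g) ⊆ centralizingMembers S (conjBy C g) := by
  intro E hE
  rw [mem_centralizingMembers_iff] at hE ⊢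
  refine ⟨hE.1, ?_⟩
  have h1 : ⁅conjBy E g⁻¹, A⁆ = ⊥ := by
    have := congrArg (fun U => conjBy U g⁻¹) hE.2
    rw [conjBy_commutator, conjBy_inv_cancel] at this
    rwa [conjBy_eq_bot.2 rfl] at this
  have h2 := (mem_centralizingMembers_iff.1
    (h (mem_centralizingMembers_iff.2 ⟨hS.conj_mem E hE.1 g⁻¹, h1⟩))).2
  have := congrArg (fun U => conjBy U g) h2
  rw [conjBy_commutator, conjBy_cancel_inv] at this
  rwa [conjBy_eq_bot.2 rfl] at this

theorem partners_subset_conj (hS : IsRootSubgroupSet S) {A C : Subgroup G}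
    (h : rankOnePartners S A ⊆ rankOnePartners S C) (g : G) :
    rankOnePartners S (conjBy A g) ⊆ rankOnePartners S (conjBy C g) := by
  rintro E ⟨hE, hp⟩
  have h1 := isRankOnePair_conjBy hp g⁻¹
  rw [conjBy_inv_cancel] at h1
  have h2 := (h ⟨hS.conj_mem E hE g⁻¹, h1⟩).2
  have h3 := isRankOnePair_conjBy h2 g
  rw [conjBy_cancel_inv] at h3
  exact ⟨hE, h3⟩

/-- The symmetry trick: for commuting `A`, `C` with a common partner, special pairs turn an
equivariant inclusion into an equality. -/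
theorem subset_symm_of_special {β : Type*} (Φ : Subgroup G → Set β)
    (hconj : ∀ X Y, Φ X ⊆ Φ Y → ∀ g, Φ (conjBy X g) ⊆ Φ (conjBy Y g))
    {A C P : Subgroup G} (hAC : ∀ a ∈ A, ∀ c ∈ C, Commute a c)
    (hA : IsSpecialRankOnePair A P) (hC : IsSpecialRankOnePair C P)
    (h : Φ A ⊆ Φ C) : Φ C ⊆ Φ A := by
  obtain ⟨f, hf, hf1⟩ := exists_ne_one_of_ne_bot (ne_bot_right hA.1)
  obtain ⟨a, ha⟩ := exists_paired_right hA.1 hf hf1
  obtain ⟨c, hc⟩ := exists_paired_right hC.1 hf hf1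
  have key : ∀ a c f, Paired A P a f → Paired C P c f → Φ P ⊆ Φ (conjBy P (a * c⁻¹)) := by
    intro a c f ha hc
    have h1 := hconj _ _ (hconj A C h f⁻¹) a
    rw [ha.2.2.2.2, hc.2.2.2.2, conjBy_cancel_inv, conjBy_conjBy] at h1
    exact h1
  have h1 := key a c f ha hc
  have h2 := key _ _ _ (paired_inv hA ha) (paired_inv hC hc)
  have hcomm : a⁻¹ * c⁻¹⁻¹ = (a * c⁻¹)⁻¹ := by
    rw [inv_inv, mul_inv_rev, inv_inv, ((hAC a ha.1 c hc.1).inv_left).eq]
  rw [hcomm] at h2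
  have h3 := hconj _ _ h2 (a * c⁻¹)
  rw [conjBy_cancel_inv] at h3
  have h4 := hconj _ _ (hconj _ _ h3 a⁻¹) f
  rw [conjBy_conjBy P, inv_mul_cancel_left,
    ← hc.2.2.2.2, ← ha.2.2.2.2, conjBy_cancel_inv, conjBy_cancel_inv] at h4
  exact h4

end CfsgLib.RootGroups
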