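import Cfsg.Agent.Lib.RootGroups.Connected

/-!
The configuration `C = ⁅A, B⁆`, `⁅D, C⁆ = A` (Timmesfeld, II (2.19)): `(B, D)` is a special rank
one pair acting naturally on `A C`.
-/

set_option autoImplicit false
set_option linter.style.haveILetI false

namespace CfsgLib.RootGroups

open Cfsg
open scoped commutatorElement

variable {G : Type*} [Group G] {S : Set (Subgroup G)} (hS : IsRootSubgroupSet S)
  {A B C D : Subgroup G} (hA : A ∈ S) (hB : B ∈ S) (hD : D ∈ S) (hC : ⁅A, B⁆ = C)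
  (h1 : RootCommutatorCase S A B) (h2 : RootCommutatorCase S D C) (hDC : ⁅D, C⁆ = A)
include hS hA hB hD hC h1 h2 hDC

theorem config_commute :
    (∀ a ∈ A, ∀ c ∈ C, Commute a c) ∧ (∀ b ∈ B, ∀ c ∈ C, Commute b c) ∧
      (∀ d ∈ D, ∀ a ∈ A, Commute d a) :=
  ⟨fun _ ha _ hc => (rcc_commute_left h1 (hC ▸ hc) ha).symm,
    fun _ hb _ hc => (rcc_commute_right h1 (hC ▸ hc) hb).symm,
    fun _ hd _ ha => (rcc_commute_left h2 (hDC ▸ ha) hd).symm⟩

/-- An element of `A` commuting with all of `B` is trivial. -/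
theorem config_left_trivial {a : G} (ha : a ∈ A) (hc : ∀ b ∈ B, Commute a b) : a = 1 := by
  by_contra ha1
  apply rcc_ne_bot hS h1
  rw [← h1.2.2.1 a ha ha1, eq_bot_iff, Subgroup.closure_le]
  rintro _ ⟨b, hb, rfl⟩
  simp only [SetLike.mem_coe, Subgroup.mem_bot]
  rw [(hc b hb).eq]
  group

/-- An element of `C` commuting with all of `D` is trivial. -/
theorem config_right_trivial {c : G} (hc : c ∈ C) (hd : ∀ d ∈ D, Commute c d) : c = 1 := by
  by_contra hc1
  apply rcc_ne_bot hS h2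
  rw [← h2.2.2.2 c hc hc1, eq_bot_iff, Subgroup.closure_le]
  rintro _ ⟨d, hd', rfl⟩
  simp only [SetLike.mem_coe, Subgroup.mem_bot]
  rw [← (hd d hd').eq]
  group

theorem config_inf {x : G} (hxA : x ∈ A) (hxC : x ∈ C) : x = 1 :=
  config_left_trivial hS hA hB hD hC h1 h2 hDC hxA
    fun b hb => ((config_commute hS hA hB hD hC h1 h2 hDC).2.1 b hb x hxC).symm

theorem config_unique {a a' c c' : G} (ha : a ∈ A) (ha' : a' ∈ A) (hc : c ∈ C) (hc' : c' ∈ C)
    (he : a * c = a' * c') : a = a' ∧ c = c' := by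
  have h : a'⁻¹ * a = c' * c⁻¹ := by
    rw [eq_mul_inv_iff_mul_eq, mul_assoc, he, inv_mul_cancel_left]
  have h' := config_inf hS hA hB hD hC h1 h2 hDC (A.mul_mem (A.inv_mem ha') ha)
    (h ▸ C.mul_mem hc' (C.inv_mem hc))
  rw [inv_mul_eq_one] at h'
  exact ⟨h'.symm, mul_left_cancel (a := a) (by rw [he, h'])⟩

/-- `b a b⁻¹ = c a` for some `c ∈ C`. -/
theorem config_conj_B {a b : G} (ha : a ∈ A) (hb : b ∈ B) : ∃ c ∈ C, b * a * b⁻¹ = c * a :=
  ⟨(a * b * a⁻¹ * b⁻¹)⁻¹, C.inv_mem (hC ▸ mem_commutator_of_mem ha hb), by group⟩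

/-- `d c d⁻¹ = a c` for some `a ∈ A`. -/
theorem config_conj_D {c d : G} (hc : c ∈ C) (hd : d ∈ D) : ∃ a ∈ A, d * c * d⁻¹ = a * c :=
  ⟨d * c * d⁻¹ * c⁻¹, hDC ▸ mem_commutator_of_mem hd hc, by group⟩

theorem config_rankOne : IsRankOnePair B D := by
  obtain ⟨hAC, hBC, hDA⟩ := config_commute hS hA hB hD hC h1 h2 hDC
  have hCne : C ≠ ⊥ := hC ▸ hS.ne_bot _ h1.1
  rcases hS.pair B hB D hD with h | h | h
  · exfalso
    have hbd := commutator_eq_bot_iff_forall_commute.1 h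
    obtain ⟨c, hc, hc1⟩ := exists_ne_one_of_ne_bot hCne
    refine hc1 (config_right_trivial hS hA hB hD hC h1 h2 hDC hc fun d hd => ?_)
    have hle : C ≤ Subgroup.centralizer ({d} : Set G) := by
      rw [← hC, Subgroup.commutator_le]
      intro a ha b hb
      rw [Subgroup.mem_centralizer_singleton_iff, commutatorElement_def]
      have ca : Commute a d := (hDA d hd a ha).symm
      have cb : Commute b d := hbd b hb d hd
      exact ((ca.mul_left cb).mul_left ca.inv_left).mul_left cb.inv_left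
    exact Subgroup.mem_centralizer_singleton_iff.1 (hle hc)
  · exact h
  · exfalso
    obtain ⟨b, hb, hb1⟩ := exists_ne_one_of_ne_bot (hS.ne_bot B hB)
    obtain ⟨d, hd, hd1⟩ := exists_ne_one_of_ne_bot (hS.ne_bot D hD)
    let e := b * d * b⁻¹ * d⁻¹
    have he : e ∈ ⁅B, D⁆ := mem_commutator_of_mem hb hd
    -- conjugation by `e` preserves `A` and `C`
    have hconj : ∀ a ∈ A, ∀ c ∈ C,
        (∃ a' ∈ A, ∃ c' ∈ C, b * (a * c) * b⁻¹ = a' * c') ∧
        (∃ a' ∈ A, ∃ c' ∈ C, d * (a * c) * d⁻¹ = a' * c') ∧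
        (∃ a' ∈ A, ∃ c' ∈ C, b⁻¹ * (a * c) * b = a' * c') ∧
        (∃ a' ∈ A, ∃ c' ∈ C, d⁻¹ * (a * c) * d = a' * c') := by
      have key : ∀ x ∈ B, ∀ y ∈ D, ∀ a ∈ A, ∀ c ∈ C,
          (∃ a' ∈ A, ∃ c' ∈ C, x * (a * c) * x⁻¹ = a' * c') ∧
          (∃ a' ∈ A, ∃ c' ∈ C, y * (a * c) * y⁻¹ = a' * c') := by
        intro x hx y hy a ha c hc
        obtain ⟨c₀, hc₀, e₁⟩ := config_conj_B hS hA hB hD hC h1 h2 hDC ha hx
        obtain ⟨a₀, ha₀, e₂⟩ := config_conj_D hS hA hB hD hC h1 h2 hDC hc hy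
        constructor
        · refine ⟨a, ha, c₀ * c, C.mul_mem hc₀ hc, ?_⟩
          calc x * (a * c) * x⁻¹ = (x * a * x⁻¹) * (x * c * x⁻¹) := by group
            _ = c₀ * a * c := by rw [e₁, (hBC x hx c hc).eq, mul_inv_cancel_right]
            _ = a * (c₀ * c) := by rw [← (hAC a ha c₀ hc₀).eq, mul_assoc]
        · refine ⟨a * a₀, A.mul_mem ha ha₀, c, hc, ?_⟩
          calc y * (a * c) * y⁻¹ = (y * a * y⁻¹) * (y * c * y⁻¹) := by group
            _ = a * (a₀ * c) := by rw [e₂, (hDA y hy a ha).eq, mul_inv_cancel_right]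
            _ = a * a₀ * c := (mul_assoc _ _ _).symm
      intro a ha c hc
      obtain ⟨k1, k2⟩ := key b hb d hd a ha c hc
      obtain ⟨k3, k4⟩ := key b⁻¹ (B.inv_mem hb) d⁻¹ (D.inv_mem hd) a ha c hc
      rw [inv_inv] at k3 k4
      exact ⟨k1, k2, k3, k4⟩
    have heN : ∀ a ∈ A, ∀ c ∈ C, ∃ a' ∈ A, ∃ c' ∈ C, e * (a * c) * e⁻¹ = a' * c' := by
      intro a ha c hc
      obtain ⟨a₁, ha₁, c₁, hc₁, e₁⟩ := (hconj a ha c hc).2.2.2
      obtain ⟨a₂, ha₂, c₂, hc₂, e₂⟩ := (hconj a₁ ha₁ c₁ hc₁).2.2.1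
      obtain ⟨a₃, ha₃, c₃, hc₃, e₃⟩ := (hconj a₂ ha₂ c₂ hc₂).2.1
      obtain ⟨a₄, ha₄, c₄, hc₄, e₄⟩ := (hconj a₃ ha₃ c₃ hc₃).1
      exact ⟨a₄, ha₄, c₄, hc₄, by rw [← e₄, ← e₃, ← e₂, ← e₁]; simp only [e]; group⟩
    have heB : ∀ x ∈ B, Commute e x := fun x hx => rcc_commute_left h he hx
    have heD : ∀ x ∈ D, Commute e x := fun x hx => rcc_commute_right h he hx
    have heA : ∀ a ∈ A, e * a * e⁻¹ ∈ A := by
      intro a ha
      obtain ⟨a', ha', c', hc', e'⟩ := heN a ha 1 C.one_mem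
      rw [mul_one] at e'
      have : c' = 1 := config_right_trivial hS hA hB hD hC h1 h2 hDC hc' fun x hx => by
        have hca : Commute (e * a * e⁻¹) x :=
          ((heD x hx).mul_left (hDA x hx a ha).symm).mul_left (heD x hx).inv_left
        have := (hDA x hx a' ha').symm.inv_left.mul_left hca
        rwa [e', inv_mul_cancel_left] at this
      rw [e', this, mul_one]
      exact ha'
    have heC : ∀ c ∈ C, e * c * e⁻¹ ∈ C := by
      intro c hc
      obtain ⟨a', ha', c', hc', e'⟩ := heN 1 A.one_mem c hc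
      rw [one_mul] at e'
      have : a' = 1 := config_left_trivial hS hA hB hD hC h1 h2 hDC ha' fun x hx => by
        have hcc : Commute (e * c * e⁻¹) x :=
          ((heB x hx).mul_left (hBC x hx c hc).symm).mul_left (heB x hx).inv_left
        have := hcc.mul_left (hBC x hx c' hc').symm.inv_left
        rwa [e', mul_inv_cancel_right] at this
      rw [e', this, one_mul]
      exact hc'
    apply rcc_ne_bot hS h1
    rw [← h1.2.2.2 b hb hb1, eq_bot_iff, Subgroup.closure_le]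
    rintro _ ⟨a₀, ha₀, rfl⟩
    simp only [SetLike.mem_coe, Subgroup.mem_bot]
    suffices h6 : Commute a₀ b by rw [h6.eq]; group
    -- every element of `A` is `⁅d, c⁆` with `c = ⁅b, a⁆`, and such an element commutes with `b`
    obtain ⟨c, hc, hdc⟩ := rcc_exists_commutator h2 hd hd1 (hDC.symm ▸ ha₀ : a₀ ∈ ⁅D, C⁆)
    obtain ⟨a, ha, hac⟩ := rcc_exists_commutator (rootCommutatorCase_symm h1) hb hb1
      (show c ∈ ⁅B, A⁆ by rw [Subgroup.commutator_comm, hC]; exact hc)
    have hba : b * a * b⁻¹ = c * a := by rw [← hac]; group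
    set a' := e * a * e⁻¹ with ha'def
    set c' := e * c * e⁻¹ with hc'def
    have ha' : a' ∈ A := heA a ha
    have hc' : c' ∈ C := heC c hc
    have hed : e * d = b * d * b⁻¹ := by simp only [e]; group
    have hfix : (e * d) * (c * a) * (e * d)⁻¹ = c * a := by
      rw [hed, ← hba]
      calc b * d * b⁻¹ * (b * a * b⁻¹) * (b * d * b⁻¹)⁻¹ = b * (d * a * d⁻¹) * b⁻¹ := by group
        _ = b * a * b⁻¹ := by rw [(hDA d hd a ha).eq, mul_inv_cancel_right]
    have hdc' : d * c * d⁻¹ = a₀ * c := by rw [← hdc]; group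
    have h3 : (e * a₀ * e⁻¹) * a' * c' = a * c := by
      rw [(hAC a ha c hc).eq, ← hfix]
      calc (e * a₀ * e⁻¹) * a' * c' = (e * a₀ * e⁻¹) * (e * (a * c) * e⁻¹) := by
            rw [ha'def, hc'def]; group
        _ = e * (a₀ * c * a) * e⁻¹ := by rw [(hAC a ha c hc).eq]; group
        _ = e * ((d * c * d⁻¹) * (d * a * d⁻¹)) * e⁻¹ := by
            rw [hdc', (hDA d hd a ha).eq, mul_inv_cancel_right]
        _ = _ := by group
    obtain ⟨e₁, e₂⟩ := config_unique hS hA hB hD hC h1 h2 hDC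
      (A.mul_mem (heA a₀ ha₀) ha') ha hc' hc h3
    -- `b` moves `a` and `a'` by the same element
    have h4 : b * a' * b⁻¹ = c * a' := by
      rw [ha'def, ← e₂, hc'def]
      have hcm := (heB b hb).eq
      calc b * (e * a * e⁻¹) * b⁻¹ = (b * e) * a * (b * e)⁻¹ := by group
        _ = (e * b) * a * (e * b)⁻¹ := by rw [hcm]
        _ = e * (b * a * b⁻¹) * e⁻¹ := by group
        _ = e * c * e⁻¹ * (e * a * e⁻¹) := by rw [hba]; group
    have h5 : Commute (e * a₀ * e⁻¹) b := by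
      refine (Commute.symm ?_)
      rw [eq_mul_inv_of_mul_eq e₁]
      show b * (a * a'⁻¹) = a * a'⁻¹ * b
      have : b * (a * a'⁻¹) * b⁻¹ = a * a'⁻¹ := by
        calc b * (a * a'⁻¹) * b⁻¹ = (b * a * b⁻¹) * (b * a' * b⁻¹)⁻¹ := by group
          _ = c * (a * a'⁻¹) * c⁻¹ := by rw [hba, h4]; group
          _ = a * a'⁻¹ := by
            rw [← (hAC _ (A.mul_mem ha (A.inv_mem ha')) c hc).eq, mul_inv_cancel_right]
      exact mul_inv_eq_iff_eq_mul.1 this
    have h6 := ((heB b hb).inv_left.mul_left h5).mul_left (heB b hb)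
    simpa [mul_assoc] using h6

/-- For a paired `(b, d)` the element `b d⁻¹` maps `C` onto `A`. -/
theorem config_conjBy_C {b d : G} (hp : Paired B D b d) : conjBy C (b * d⁻¹) = A := by
  obtain ⟨hAC, hBC, hDA⟩ := config_commute hS hA hB hD hC h1 h2 hDC
  have hw : conjBy B (b * d⁻¹) = D := hp.conj_left
  have hw' : conjBy D (d * b⁻¹) = B := hp.conj_right
  refine le_antisymm (fun x hx => ?_) (fun a ha => ?_)
  · rw [mem_conjBy] at hx
    set c := (b * d⁻¹)⁻¹ * x * (b * d⁻¹) with hcdef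
    obtain ⟨a, ha, e1⟩ := config_conj_D hS hA hB hD hC h1 h2 hDC hx (D.inv_mem hp.2.2.1)
    rw [inv_inv] at e1
    obtain ⟨c₁, hc₁, e2⟩ := config_conj_B hS hA hB hD hC h1 h2 hDC ha hp.1
    have hx' : x = a * (c₁ * c) := by
      calc x = b * (d⁻¹ * c * d) * b⁻¹ := by rw [hcdef]; group
        _ = b * (a * c) * b⁻¹ := by rw [e1]
        _ = (b * a * b⁻¹) * (b * c * b⁻¹) := by group
        _ = a * c₁ * c := by
          rw [e2, (hBC b hp.1 c hx).eq, mul_inv_cancel_right, (hAC a ha c₁ hc₁).eq]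
        _ = a * (c₁ * c) := mul_assoc _ _ _
    have hone : c₁ * c = 1 := by
      refine config_right_trivial hS hA hB hD hC h1 h2 hDC (C.mul_mem hc₁ hx) fun y hy => ?_
      have hxy : Commute x y := by
        rw [← hw, mem_conjBy] at hy
        have := ((hBC _ hy c hx).symm).map (MulAut.conj (b * d⁻¹)).toMonoidHom
        simpa [hcdef, mul_assoc] using this
      have := (hDA y hy a ha).symm.inv_left.mul_left hxy
      rwa [hx', inv_mul_cancel_left] at this
    rw [hx', hone, mul_one]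
    exact ha
  · rw [mem_conjBy]
    set x := (b * d⁻¹)⁻¹ * a * (b * d⁻¹) with hxdef
    obtain ⟨c, hc, e2⟩ := config_conj_B hS hA hB hD hC h1 h2 hDC ha (B.inv_mem hp.1)
    rw [inv_inv] at e2
    obtain ⟨a₁, ha₁, e1⟩ := config_conj_D hS hA hB hD hC h1 h2 hDC hc hp.2.2.1
    have hx' : x = a₁ * a * c := by
      calc x = d * (b⁻¹ * a * b) * d⁻¹ := by rw [hxdef]; group
        _ = d * (c * a) * d⁻¹ := by rw [e2]
        _ = (d * c * d⁻¹) * (d * a * d⁻¹) := by group
        _ = a₁ * c * a := by rw [e1, (hDA d hp.2.2.1 a ha).eq, mul_inv_cancel_right]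
        _ = a₁ * a * c := by rw [mul_assoc, ← (hAC a ha c hc).eq, ← mul_assoc]
    have hone : a₁ * a = 1 := by
      refine config_left_trivial hS hA hB hD hC h1 h2 hDC (A.mul_mem ha₁ ha) fun y hy => ?_
      have hxy : Commute x y := by
        rw [← hw', mem_conjBy] at hy
        have := ((hDA _ hy a ha).symm).map (MulAut.conj (d * b⁻¹)).toMonoidHom
        simpa [hxdef, mul_assoc] using this
      have := hxy.mul_left (hBC y hy c hc).symm.inv_left
      rwa [hx', mul_inv_cancel_right] at this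
    rw [hx', hone, one_mul]
    exact hc

/-- For `c ∈ C`: `d⁻¹ c d = a c` with `b a b⁻¹ = c⁻¹ a`. -/
theorem config_paired_C {b d : G} (hp : Paired B D b d) {c : G} (hc : c ∈ C) :
    ∃ a ∈ A, d⁻¹ * c * d = a * c ∧ b * a * b⁻¹ = c⁻¹ * a := by
  obtain ⟨hAC, hBC, hDA⟩ := config_commute hS hA hB hD hC h1 h2 hDC
  obtain ⟨a, ha, e1⟩ := config_conj_D hS hA hB hD hC h1 h2 hDC hc (D.inv_mem hp.2.2.1)
  rw [inv_inv] at e1
  obtain ⟨c₁, hc₁, e2⟩ := config_conj_B hS hA hB hD hC h1 h2 hDC ha hp.1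
  refine ⟨a, ha, e1, ?_⟩
  have hmem : b * d⁻¹ * c * (b * d⁻¹)⁻¹ ∈ A := by
    have := conj_mem_conjBy (g := b * d⁻¹) hc
    rwa [config_conjBy_C hS hA hB hD hC h1 h2 hDC hp] at this
  have he : b * d⁻¹ * c * (b * d⁻¹)⁻¹ = a * (c₁ * c) := by
    calc b * d⁻¹ * c * (b * d⁻¹)⁻¹ = b * (d⁻¹ * c * d) * b⁻¹ := by group
      _ = b * (a * c) * b⁻¹ := by rw [e1]
      _ = (b * a * b⁻¹) * (b * c * b⁻¹) := by group
      _ = a * c₁ * c := by
        rw [e2, (hBC b hp.1 c hc).eq, mul_inv_cancel_right, (hAC a ha c₁ hc₁).eq]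
      _ = a * (c₁ * c) := mul_assoc _ _ _
  have hone := (config_unique hS hA hB hD hC h1 h2 hDC hmem ha C.one_mem (C.mul_mem hc₁ hc)
    (by rw [mul_one, he])).2
  rw [e2, eq_inv_of_mul_eq_one_left hone.symm]

/-- A nonidentity element of `B` fixes no nonidentity element of `A`. -/
theorem config_inj {a b : G} (ha : a ∈ A) (hb : b ∈ B) (hb1 : b ≠ 1) (hc : Commute a b) :
    a = 1 := by
  have hp' := config_rankOne hS hA hB hD hC h1 h2 hDC
  obtain ⟨d, hp⟩ := exists_paired hp' hb hb1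
  have hmem : (b * d⁻¹)⁻¹ * a * (b * d⁻¹) ∈ C := by
    rw [← mem_conjBy, config_conjBy_C hS hA hB hD hC h1 h2 hDC hp]; exact ha
  obtain ⟨-, -, hDA⟩ := config_commute hS hA hB hD hC h1 h2 hDC
  refine config_inf hS hA hB hD hC h1 h2 hDC ha ?_
  convert hmem using 1
  calc a = d * a * d⁻¹ := by rw [(hDA d hp.2.2.1 a ha).eq, mul_inv_cancel_right]
    _ = d * (b⁻¹ * (a * b)) * d⁻¹ := by rw [hc.eq, inv_mul_cancel_left]
    _ = _ := by group

theorem config_special : IsSpecialRankOnePair B D := by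
  have hp' := config_rankOne hS hA hB hD hC h1 h2 hDC
  obtain ⟨hAC, hBC, hDA⟩ := config_commute hS hA hB hD hC h1 h2 hDC
  refine ⟨hp', fun b hb hb1 d hd hd1 he => ?_⟩
  have hp : Paired B D b d := ⟨hb, hb1, hd, hd1, he⟩
  set d' := b * d⁻¹ * b * (b * d⁻¹)⁻¹ with hd'
  have hd'D : d' ∈ D := by
    have := conj_mem_conjBy (g := b * d⁻¹) hb
    rwa [hp.conj_left] at this
  -- `d'` and `d⁻¹` act equally on `C`
  have hfix : ∀ c ∈ C, d' * c * d'⁻¹ = d⁻¹ * c * d := by
    intro c hc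
    obtain ⟨a, ha, e1, e2⟩ := config_paired_C hS hA hB hD hC h1 h2 hDC hp hc
    have ea : d * a * d⁻¹ = a := by rw [(hDA d hd a ha).eq, mul_inv_cancel_right]
    have ea' : d⁻¹ * a * d = a := by rw [mul_assoc, ← (hDA d hd a ha).eq, inv_mul_cancel_left]
    have ec : b * c * b⁻¹ = c := by rw [(hBC b hb c hc).eq, mul_inv_cancel_right]
    have e3 : d * c * d⁻¹ = a⁻¹ * c := by
      have h : d * (d⁻¹ * c * d) * d⁻¹ = d * (a * c) * d⁻¹ := by rw [e1]
      rw [show d * (d⁻¹ * c * d) * d⁻¹ = c by group,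
        show d * (a * c) * d⁻¹ = (d * a * d⁻¹) * (d * c * d⁻¹) by group, ea] at h
      rw [eq_inv_mul_iff_mul_eq]; exact h.symm
    calc d' * c * d'⁻¹ = b * (d⁻¹ * (b * (d * (b⁻¹ * c * b) * d⁻¹) * b⁻¹) * d) * b⁻¹ := by
          rw [hd']; group
      _ = b * (d⁻¹ * (b * (a⁻¹ * c) * b⁻¹) * d) * b⁻¹ := by
          rw [show b⁻¹ * c * b = c by rw [mul_assoc, ← (hBC b hb c hc).eq, inv_mul_cancel_left], e3]
      _ = b * (d⁻¹ * ((b * a * b⁻¹)⁻¹ * (b * c * b⁻¹)) * d) * b⁻¹ := by group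
      _ = b * (d⁻¹ * (a⁻¹ * c * c) * d) * b⁻¹ := by rw [e2, ec]; group
      _ = b * ((d⁻¹ * a * d)⁻¹ * (d⁻¹ * c * d) * (d⁻¹ * c * d)) * b⁻¹ := by group
      _ = b * (a⁻¹ * (a * c) * (a * c)) * b⁻¹ := by rw [ea', e1]
      _ = (b * c * b⁻¹) * (b * a * b⁻¹) * (b * c * b⁻¹) := by group
      _ = c * (c⁻¹ * a) * c := by rw [ec, e2]
      _ = a * c := by group
      _ = d⁻¹ * c * d := e1.symm
  have hone : d * d' = 1 := by
    by_contra hne
    apply rcc_ne_bot hS h2
    rw [← h2.2.2.1 _ (D.mul_mem hd hd'D) hne, eq_bot_iff, Subgroup.closure_le]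
    rintro _ ⟨c, hc, rfl⟩
    simp only [SetLike.mem_coe, Subgroup.mem_bot]
    rw [mul_inv_eq_one]
    calc d * d' * c * (d * d')⁻¹ = d * (d' * c * d'⁻¹) * d⁻¹ := by group
      _ = c := by rw [hfix c hc]; group
  have h' : d' = d⁻¹ := eq_inv_of_mul_eq_one_right hone
  calc d⁻¹ * b * d = b⁻¹ * d' * b := by rw [hd']; group
    _ = b⁻¹ * d⁻¹ * b := by rw [h']

theorem config_orbit :
    {E | ∃ x ∈ B ⊔ D, E = conjBy A x} = (fun b : G => conjBy A b) '' (B : Set G) ∪ {C} := by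
  have hp' := config_rankOne hS hA hB hD hC h1 h2 hDC
  obtain ⟨hAC, hBC, hDA⟩ := config_commute hS hA hB hD hC h1 h2 hDC
  set T := (fun b : G => conjBy A b) '' (B : Set G) ∪ {C} with hT
  have hswap : ∀ b d, Paired B D b d → conjBy C d⁻¹ = conjBy A b⁻¹ := by
    intro b d hp
    rw [← config_conjBy_C hS hA hB hD hC h1 h2 hDC hp, conjBy_conjBy, inv_mul_cancel_left]
  have hCd : ∀ d ∈ D, conjBy C d ∈ T := by
    intro d hd
    rcases eq_or_ne d 1 with rfl | hd1
    · exact Or.inr (conjBy_one C)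
    · obtain ⟨b, hp⟩ := exists_paired_right hp' (D.inv_mem hd) (inv_ne_one.2 hd1)
      have := hswap b _ hp
      rw [inv_inv] at this
      exact Or.inl ⟨b⁻¹, B.inv_mem hp.1, this.symm⟩
  have hgen : ∀ x ∈ (B : Set G) ∪ D, ∀ E ∈ T, conjBy E x ∈ T := by
    rintro x (hx | hx) E (⟨b, hb, rfl⟩ | rfl)
    · exact Or.inl ⟨x * b, B.mul_mem hx hb, (conjBy_conjBy A x b).symm⟩
    · exact Or.inr (conjBy_of_commute fun c hc => hBC x hx c hc)
    · rcases eq_or_ne b 1 with rfl | hb1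
      · refine Or.inl ⟨1, B.one_mem, ?_⟩
        simp only [conjBy_one]
        exact (conjBy_of_commute fun a ha => hDA x hx a ha).symm
      · obtain ⟨d, hp⟩ := exists_paired hp' (B.inv_mem hb) (inv_ne_one.2 hb1)
        have := hswap _ d hp
        rw [inv_inv] at this
        simp only
        rw [← this, conjBy_conjBy]
        exact hCd _ (D.mul_mem hx (D.inv_mem hp.2.2.1))
    · exact hCd x hx
  have hall : ∀ x ∈ B ⊔ D, ∀ E ∈ T, conjBy E x ∈ T := by
    intro x hx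
    rw [Subgroup.sup_eq_closure] at hx
    induction hx using Subgroup.closure_induction'' with
    | one => intro E hE; rwa [conjBy_one]
    | mul x y _ _ hx hy => intro E hE; rw [← conjBy_conjBy]; exact hx _ (hy E hE)
    | mem x hx => exact hgen x hx
    | inv_mem x hx =>
      exact hgen x⁻¹ (hx.elim (fun h => Or.inl (B.inv_mem h)) fun h => Or.inr (D.inv_mem h))
  ext E
  constructor
  · rintro ⟨x, hx, rfl⟩
    exact hall x hx A (Or.inl ⟨1, B.one_mem, conjBy_one A⟩)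
  · rintro (⟨b, hb, rfl⟩ | rfl)
    · exact ⟨b, Subgroup.mem_sup_left hb, rfl⟩
    · obtain ⟨b, d, hp⟩ := exists_paired_pair hp'
      refine ⟨d * b⁻¹, Subgroup.mul_mem _ (Subgroup.mem_sup_right hp.2.2.1)
        (Subgroup.inv_mem _ (Subgroup.mem_sup_left hp.1)), ?_⟩
      rw [← conjBy_conjBy, ← hswap b d hp, conjBy_cancel_inv]

theorem config_centralizer_central {x : G} (hx : x ∈ B ⊔ D) (hA' : ∀ a ∈ A, Commute x a)
    (hC' : ∀ c ∈ C, Commute x c) : ∀ y ∈ B ⊔ D, Commute x y := by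
  have hp' := config_rankOne hS hA hB hD hC h1 h2 hDC
  obtain ⟨hAC, hBC, hDA⟩ := config_commute hS hA hB hD hC h1 h2 hDC
  -- `x` normalizes `B`: its conjugate centralizes `C`
  have hfix : conjBy B x = B := by
    rcases (mem_unipotent_iff hp').1 (conjBy_mem_unipotent (left_mem_unipotent B D) hx) with
      e | ⟨b, hb, e⟩
    · exact e
    · exfalso
      apply rcc_ne_bot hS h2
      rw [commutator_eq_bot_iff_forall_commute]
      intro d hd c hc
      have hmem : b * d * b⁻¹ ∈ conjBy B x := e ▸ conj_mem_conjBy hd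
      rw [mem_conjBy] at hmem
      have h3 := (hBC _ hmem c hc).map (MulAut.conj x).toMonoidHom
      have h4 : Commute (b * d * b⁻¹) c := by
        simpa [mul_assoc, show x * (c * x⁻¹) = c by
          rw [← mul_assoc, (hC' c hc).eq, mul_inv_cancel_right]] using h3
      have h5 := h4.map (MulAut.conj b⁻¹).toMonoidHom
      simpa [mul_assoc, show b⁻¹ * (c * b) = c by
        rw [← (hBC b hb c hc).eq, inv_mul_cancel_left]] using h5
  have hfix' : conjBy D x = D := by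
    rcases (mem_unipotent_iff hp').1 (conjBy_mem_unipotent (right_mem_unipotent hp') hx) with
      e | ⟨b, hb, e⟩
    · exfalso
      apply rcc_ne_bot hS h1
      rw [commutator_eq_bot_iff_forall_commute]
      intro a ha y hy
      rw [← e, mem_conjBy] at hy
      have h3 := ((hDA _ hy a ha).symm).map (MulAut.conj x).toMonoidHom
      simpa [mul_assoc, show x * (a * x⁻¹) = a by
        rw [← mul_assoc, (hA' a ha).eq, mul_inv_cancel_right]] using h3
    · rcases eq_or_ne b 1 with rfl | hb1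
      · rw [e, conjBy_one]
      · exfalso
        obtain ⟨a, ha, ha1⟩ := exists_ne_one_of_ne_bot (hS.ne_bot A hA)
        refine ha1 (config_inj hS hA hB hD hC h1 h2 hDC ha (B.inv_mem hb) (inv_ne_one.2 hb1) ?_)
        obtain ⟨c, hc, e'⟩ := config_conj_B hS hA hB hD hC h1 h2 hDC ha (B.inv_mem hb)
        rw [inv_inv] at e'
        have hc1 : c = 1 := by
          refine config_right_trivial hS hA hB hD hC h1 h2 hDC hc fun d hd => ?_
          have hmem : b * d * b⁻¹ ∈ conjBy D x := e ▸ conj_mem_conjBy hd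
          rw [mem_conjBy] at hmem
          have h3 := (hDA _ hmem a ha).map (MulAut.conj x).toMonoidHom
          have h4 : Commute (b * d * b⁻¹) a := by
            simpa [mul_assoc, show x * (a * x⁻¹) = a by
              rw [← mul_assoc, (hA' a ha).eq, mul_inv_cancel_right]] using h3
          have h5 := h4.map (MulAut.conj b⁻¹).toMonoidHom
          have h6 : Commute d (c * a) := by
            rw [← e']
            simpa [mul_assoc] using h5
          have h7 := h6.mul_right (hDA d hd a ha).inv_right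
          rw [mul_inv_cancel_right] at h7
          exact h7.symm
        rw [hc1, one_mul] at e'
        show a * b⁻¹ = b⁻¹ * a
        rw [eq_comm, ← mul_inv_eq_iff_eq_mul]
        simpa using e'
  -- hence it centralizes `B`
  have hxB : ∀ b ∈ B, Commute x b := by
    intro b hb
    have hmem : x * b * x⁻¹ * b⁻¹ ∈ B := B.mul_mem (hfix ▸ conj_mem_conjBy hb) (B.inv_mem hb)
    suffices x * b * x⁻¹ * b⁻¹ = 1 from mul_inv_eq_iff_eq_mul.1 (mul_inv_eq_one.1 this)
    by_contra hne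
    apply rcc_ne_bot hS h1
    rw [← h1.2.2.2 _ hmem hne, eq_bot_iff, Subgroup.closure_le]
    rintro _ ⟨a, ha, rfl⟩
    simp only [SetLike.mem_coe, Subgroup.mem_bot]
    obtain ⟨c, hc, e⟩ := config_conj_B hS hA hB hD hC h1 h2 hDC ha (B.inv_mem hb)
    rw [inv_inv] at e
    have h8 : x * b * x⁻¹ * b⁻¹ * a * (x * b * x⁻¹ * b⁻¹)⁻¹ = a := by
      calc _ = x * (b * (x⁻¹ * (b⁻¹ * a * b) * x) * b⁻¹) * x⁻¹ := by group
        _ = x * (b * (b⁻¹ * a * b) * b⁻¹) * x⁻¹ := by
          rw [e, show x⁻¹ * (c * a) * x = c * a by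
            rw [mul_assoc, ← ((hC' c hc).mul_right (hA' a ha)).eq, inv_mul_cancel_left]]
        _ = a := by
          rw [show b * (b⁻¹ * a * b) * b⁻¹ = a by group, (hA' a ha).eq, mul_inv_cancel_right]
    rw [mul_inv_eq_iff_eq_mul] at h8
    rw [← h8]; group
  exact commute_of_sup hxB (commute_right_of_commute_left hp' hxB hfix')

end CfsgLib.RootGroups
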