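import Cfsg.Agent.Lib.RootGroups.Lines

/-!
Components of the graph of rank one pairs (Timmesfeld, II (2.5), (2.6)).
-/

set_option autoImplicit false
set_option linter.style.haveILetI false

namespace CfsgLib.RootGroups

open Cfsg
open Relation (ReflTransGen)

variable {G : Type*} [Group G] {S : Set (Subgroup G)}

theorem fAdj_symm {A B : Subgroup G} (h : FAdj S A B) : FAdj S B A :=
  ⟨h.2.1, h.1, RankOnePair_symm h.2.2⟩

theorem fReach_symm {A B : Subgroup G} (h : ReflTransGen (FAdj S) A B) :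
    ReflTransGen (FAdj S) B A := by
  induction h with
  | refl => exact ReflTransGen.refl
  | tail _ hadj ih => exact ih.head (fAdj_symm hadj)

theorem componentOf_eq_of_reach {A B : Subgroup G} (h : ReflTransGen (FAdj S) A B) :
    componentOf (FAdj S) S A = componentOf (FAdj S) S B := by
  ext C
  exact ⟨fun hC => ⟨hC.1, (fReach_symm h).trans hC.2⟩, fun hC => ⟨hC.1, h.trans hC.2⟩⟩

theorem exists_partner_of_reach {A A' : Subgroup G} (h : ReflTransGen (FAdj S) A A')
    (hne : A' ≠ A) : ∃ C ∈ S, IsRankOnePair A C := by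
  rcases ReflTransGen.cases_head h with e | ⟨C, hC, -⟩
  · exact absurd e.symm hne
  · exact ⟨C, hC.2.1, hC.2.2⟩

/-- Conjugating by an element centralizing a partner stays in the component. -/
theorem reach_conjBy_of_commute (hS : IsRootSubgroupSet S) {A A' : Subgroup G} (hA : A ∈ S)
    (hA' : A' ∈ S) (hp : IsRankOnePair A A') {k : G} (hk : ∀ x ∈ A', Commute k x) :
    ReflTransGen (FAdj S) A (conjBy A k) := by
  have h2 := isRankOnePair_conjBy hp k
  rw [conjBy_of_commute hk] at h2
  exact (ReflTransGen.single (show FAdj S A A' from ⟨hA, hA', hp⟩)).tail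
    ⟨hA', hS.conj_mem A hA k, RankOnePair_symm h2⟩

/-- Two members with partners that lie on a common line lie in one component. -/
theorem reach_of_linePartners (hS : IsRootSubgroupSet S) {A A' B B' : Subgroup G} (hA : A ∈ S)
    (hA' : A' ∈ S) (hp : IsRankOnePair A A') (hB' : B' ∈ S) (hq : IsRankOnePair B B')
    (hB : B ∈ linePartners S A) : ReflTransGen (FAdj S) A B := by
  obtain ⟨T, hT, h1, h2, h3, h4⟩ := line_structure hS hA hA' hp hB
  obtain ⟨⟨hBS, hBA, hAB⟩, -, hcov, hdis⟩ := hB
  have hBmem : B ∈ membersIn S (A ⊔ ⁅A, ⁅A', T⁆⁆) := by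
    rw [h3, h4]; exact ⟨hBS, le_sup_right⟩
  rw [rcc_membersIn hS hA hA' hp h2, h3] at hBmem
  rcases hBmem with ⟨k, hk, rfl⟩ | rfl
  · exact reach_conjBy_of_commute hS hA hA' hp fun x hx => rcc_commute_left h1 hk hx
  -- now `B` is the member in the commutator case with `A'`
  have hcAB := commutator_eq_bot_iff_forall_commute.1 hAB
  obtain ⟨a, ha, ha1⟩ := exists_ne_one_of_ne_bot (ne_bot_left hp)
  obtain ⟨b, hb, hb1⟩ := exists_ne_one_of_ne_bot (ne_bot_left hq)
  have hne1 : a * b ≠ 1 := by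
    intro e
    apply hb1
    by_contra
    exact hBA (eq_of_mem_of_mem hS hA hA' hBS hp (eq_inv_of_mul_eq_one_right e ▸ A.inv_mem ha)
      hb1 hb)
  obtain ⟨D, hD, hmem⟩ := hcov (a * b)
    (Subgroup.mul_mem _ (Subgroup.mem_sup_left ha) (Subgroup.mem_sup_right hb)) hne1
  obtain ⟨-, ⟨k, hk, rfl⟩, -⟩ := line_key hS hA hA' hBS hD.1 hp hAB h1 ha ha1 hb hb1 hmem
  have hAD := reach_conjBy_of_commute hS hA hA' hp fun x hx => rcc_commute_left h1 hk hx
  rcases hS.pair B' hB' A hA with h | h | h
  · exfalso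
    refine ha1 (eq_of_mul_mem hS hBS hB' hD.1 hq (z := a) (commute_of_sup
      (fun x hx => hcAB a ha x hx)
      (fun x hx => (commutator_eq_bot_iff_forall_commute.1 h x hx a ha).symm)) hb hb1 hmem).2
  · exact (ReflTransGen.single (show FAdj S A B' from ⟨hA, hB', RankOnePair_symm h⟩)).tail
      ⟨hB', hBS, RankOnePair_symm hq⟩
  · obtain ⟨-, ⟨k', hk', hDk⟩, -⟩ := line_key hS hBS hB' hA hD.1 hq
      (by rwa [Subgroup.commutator_comm]) h hb hb1 ha ha1 ((hcAB a ha b hb).eq ▸ hmem)
    exact hAD.trans (hDk ▸ fReach_symm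
      (reach_conjBy_of_commute hS hBS hB' hq fun x hx => rcc_commute_left h hk' hx))

/-- A member with a partner is connected to its conjugates by root elements. -/
theorem reach_conjBy_rootElement (hS : IsRootSubgroupSet S) {A A' D : Subgroup G} (hA : A ∈ S)
    (hA' : A' ∈ S) (hp : IsRankOnePair A A') (hD : D ∈ S) {d : G} (hd : d ∈ D) :
    ReflTransGen (FAdj S) A (conjBy A d) := by
  rcases hS.pair A hA D hD with h | h | h
  · rw [conjBy_of_commute fun x hx => (commutator_eq_bot_iff_forall_commute.1 h x hx d hd).symm]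
  · have h2 := isRankOnePair_conjBy h d
    rw [conjBy_of_mem hd] at h2
    exact (ReflTransGen.single (show FAdj S A D from ⟨hA, hD, h⟩)).tail
      ⟨hD, hS.conj_mem A hA d, RankOnePair_symm h2⟩
  · obtain ⟨T, hT, h1, h2, h3, h4⟩ :=
      line_structure hS hA hA' hp (rcc_linePartners hS hA hA' hp h).2
    have hmem : conjBy A d ∈ membersIn S (A ⊔ ⁅A, ⁅A', T⁆⁆) := by
      rw [h3, h4]; exact ⟨hS.conj_mem A hA d, rcc_conjBy_le h hd⟩
    rw [rcc_membersIn hS hA hA' hp h2, h3] at hmem
    rcases hmem with ⟨k, hk, e⟩ | e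
    · simp only at e
      rw [← e]
      exact reach_conjBy_of_commute hS hA hA' hp fun x hx => rcc_commute_left h1 hk hx
    · refine reach_of_linePartners hS hA hA' hp (hS.conj_mem A' hA' d)
        (isRankOnePair_conjBy hp d) ?_
      rw [e, ← h3]
      exact (rcc_linePartners hS hA hA' hp h2).2

end CfsgLib.RootGroups
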