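import Cfsg.Agent.Lib.RootGroups.Sets

/-!
The commutator case and lines (Timmesfeld, II (2.3), (2.4)).
-/

set_option autoImplicit false
set_option linter.style.haveILetI false

namespace CfsgLib.RootGroups

open Cfsg
open scoped commutatorElement

variable {G : Type*} [Group G] {S : Set (Subgroup G)}

/-- The product of two elementwise commuting subgroups. -/
theorem exists_mul_of_mem_sup {A C : Subgroup G} (h : ∀ a ∈ A, ∀ c ∈ C, Commute a c) {x : G}
    (hx : x ∈ A ⊔ C) : ∃ a ∈ A, ∃ c ∈ C, x = a * c := by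
  let P : Subgroup G :=
    { carrier := {x | ∃ a ∈ A, ∃ c ∈ C, x = a * c}
      one_mem' := ⟨1, A.one_mem, 1, C.one_mem, (mul_one 1).symm⟩
      mul_mem' := by
        rintro _ _ ⟨a, ha, c, hc, rfl⟩ ⟨a', ha', c', hc', rfl⟩
        exact ⟨a * a', A.mul_mem ha ha', c * c', C.mul_mem hc hc',
          (h a' ha' c hc).symm.mul_mul_mul_comm a c'⟩
      inv_mem' := by
        rintro _ ⟨a, ha, c, hc, rfl⟩
        exact ⟨a⁻¹, A.inv_mem ha, c⁻¹, C.inv_mem hc,
          by rw [mul_inv_rev, ((h a ha c hc).inv_inv).symm.eq]⟩ }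
  have hle : A ⊔ C ≤ P :=
    sup_le (fun a ha => ⟨a, ha, 1, C.one_mem, (mul_one a).symm⟩)
      (fun c hc => ⟨1, A.one_mem, c, hc, (one_mul c).symm⟩)
  exact hle hx

theorem conjBy_commutator_of_mem {A B : Subgroup G} {x : G} (hx : x ∈ A ⊔ B) :
    conjBy ⁅A, B⁆ x = ⁅A, B⁆ := by
  have key : ∀ y ∈ (A : Set G) ∪ B, ∀ c ∈ ⁅A, B⁆, y * c * y⁻¹ ∈ ⁅A, B⁆ := by
    intro y hy c hc
    suffices ⁅A, B⁆ ≤ (⁅A, B⁆).comap (MulAut.conj y).toMonoidHom from this hc
    rw [Subgroup.commutator_le]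
    intro a ha b hb
    show y * ⁅a, b⁆ * y⁻¹ ∈ ⁅A, B⁆
    rcases hy with hy | hy
    · rw [show y * ⁅a, b⁆ * y⁻¹ = ⁅y * a, b⁆ * ⁅y, b⁆⁻¹ by
        simp [commutatorElement_def, mul_assoc]]
      exact Subgroup.mul_mem _ (Subgroup.commutator_mem_commutator (A.mul_mem hy ha) hb)
        (Subgroup.inv_mem _ (Subgroup.commutator_mem_commutator hy hb))
    · rw [show y * ⁅a, b⁆ * y⁻¹ = ⁅a, y⁆⁻¹ * ⁅a, y * b⁆ by
        simp [commutatorElement_def, mul_assoc]]
      exact Subgroup.mul_mem _ (Subgroup.inv_mem _ (Subgroup.commutator_mem_commutator ha hy))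
        (Subgroup.commutator_mem_commutator ha (B.mul_mem hy hb))
  apply conjBy_eq_self_iff.2
  refine (sup_le ?_ ?_ : A ⊔ B ≤ Subgroup.normalizer ((⁅A, B⁆ : Subgroup G) : Set G)) hx <;>
    intro y hy <;>
    rw [Subgroup.mem_normalizer_iff] <;> intro c
  · refine ⟨key y (Or.inl hy) c, fun h => ?_⟩
    simpa [mul_assoc] using key y⁻¹ (Or.inl (A.inv_mem hy)) _ h
  · refine ⟨key y (Or.inr hy) c, fun h => ?_⟩
    simpa [mul_assoc] using key y⁻¹ (Or.inr (B.inv_mem hy)) _ h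

/-- If `⁅A, B⁆ ∈ S` then the pair is in the commutator case. -/
theorem rcc_of_commutator_mem (hS : IsRootSubgroupSet S) {A B : Subgroup G} (hA : A ∈ S)
    (hB : B ∈ S) (hC : ⁅A, B⁆ ∈ S) : RootCommutatorCase S A B := by
  rcases hS.pair A hA B hB with h | h | h
  · exact absurd h (hS.ne_bot _ hC)
  · exfalso
    obtain ⟨a, b, hab⟩ := exists_paired_pair h
    have hle : ⁅A, B⁆ ≤ A ⊔ B := by
      rw [Subgroup.commutator_le]
      intro x hx y hy
      rw [commutatorElement_def]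
      exact Subgroup.mul_mem _ (Subgroup.mul_mem _ (Subgroup.mul_mem _ (Subgroup.mem_sup_left hx)
        (Subgroup.mem_sup_right hy)) (Subgroup.inv_mem _ (Subgroup.mem_sup_left hx)))
        (Subgroup.inv_mem _ (Subgroup.mem_sup_right hy))
    rcases mem_unipotent_or_central hS hA hB h hC hle with hu | hc
    · -- a unipotent subgroup is not normal
      rcases (mem_unipotent_iff h).1 hu with e | ⟨x, hx, e⟩
      · have h2 := conjBy_commutator_of_mem (A := A) (B := B) (Subgroup.mem_sup_right hab.2.2.1)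
        rw [e] at h2
        exact hab.2.2.2.1 (eq_one_of_mem_normalizer (RankOnePair_symm h) hab.2.2.1 h2)
      · have h2 := conjBy_commutator_of_mem (A := A) (B := B)
          (Subgroup.mem_sup_left (A.mul_mem (A.mul_mem hx hab.1) (A.inv_mem hx)))
        rw [e, conjBy_conjBy] at h2
        have := conjBy_right_inj h (A.mul_mem (A.mul_mem (A.mul_mem hx hab.1) (A.inv_mem hx)) hx)
          hx h2
        exact hab.2.1 (by simpa using this)
    · haveI := hS.commutative B hB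
      have h2 : Commute (a * b * a⁻¹) b := by
        rw [show a * b * a⁻¹ = (a * b * a⁻¹ * b⁻¹) * b by group]
        exact (hc _ (mem_commutator_of_mem hab.1 hab.2.2.1) b
          (Subgroup.mem_sup_right hab.2.2.1)).mul_left (Commute.refl b)
      have hne : conjBy B a ≠ B := fun e => hab.2.1 (eq_one_of_mem_normalizer h hab.1 e)
      exact not_commute (isRankOnePair_of_mem h (conjBy_right_mem h hab.1) (right_mem_unipotent h)
        hne) (conj_mem_conjBy hab.2.2.1)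
        (fun e => hab.2.2.2.1 (by simpa [mul_inv_eq_one] using e)) hab.2.2.1 hab.2.2.2.1 h2
  · exact h

/-- For fixed `a ∈ A#` every element of `⁅A, B⁆` is a commutator `⁅a, b⁆`. -/
theorem rcc_exists_commutator {A B : Subgroup G} (h : RootCommutatorCase S A B) {a : G}
    (ha : a ∈ A) (ha1 : a ≠ 1) {c : G} (hc : c ∈ ⁅A, B⁆) :
    ∃ b ∈ B, a * b * a⁻¹ * b⁻¹ = c := by
  let φ : B →* G :=
    { toFun := fun b => a * b * a⁻¹ * (b : G)⁻¹
      map_one' := by simp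
      map_mul' := fun x y => by
        have hk := rcc_commute_right h (mem_commutator_of_mem ha y.2) x.2
        simp only [Subgroup.coe_mul, mul_inv_rev]
        calc a * (↑x * ↑y) * a⁻¹ * ((↑y)⁻¹ * (↑x)⁻¹)
            = a * ↑x * a⁻¹ * ((a * ↑y * a⁻¹ * (↑y)⁻¹) * (↑x)⁻¹) := by group
          _ = a * ↑x * a⁻¹ * ((↑x)⁻¹ * (a * ↑y * a⁻¹ * (↑y)⁻¹)) := by rw [hk.inv_right.eq]
          _ = a * ↑x * a⁻¹ * (↑x)⁻¹ * (a * ↑y * a⁻¹ * (↑y)⁻¹) := by group }
  have hφ : φ.range = ⁅A, B⁆ := by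
    rw [← h.2.2.1 a ha ha1]
    refine le_antisymm ?_ ((Subgroup.closure_le _).2 ?_)
    · rintro _ ⟨b, rfl⟩
      exact Subgroup.subset_closure ⟨b, b.2, rfl⟩
    · rintro _ ⟨b, hb, rfl⟩
      exact ⟨⟨b, hb⟩, rfl⟩
  obtain ⟨b, hb⟩ := hφ.symm ▸ hc
  exact ⟨b, b.2, hb⟩

/-- `b a b⁻¹` runs through all `c a`, `c ∈ ⁅A, B⁆`. -/
theorem rcc_exists_conj {A B : Subgroup G} (h : RootCommutatorCase S A B) {a : G}
    (ha : a ∈ A) (ha1 : a ≠ 1) {c : G} (hc : c ∈ ⁅A, B⁆) :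
    ∃ b ∈ B, b * a * b⁻¹ = c * a := by
  obtain ⟨b, hb, e⟩ := rcc_exists_commutator h ha ha1 (Subgroup.inv_mem _ hc)
  refine ⟨b, hb, ?_⟩
  rw [← inv_inv c, ← e]
  group

theorem rcc_left_ne {A B : Subgroup G} (hS : IsRootSubgroupSet S)
    (h : RootCommutatorCase S A B) : A ≠ ⁅A, B⁆ := by
  intro e
  apply rcc_ne_bot hS h
  rw [commutator_eq_bot_iff_forall_commute]
  exact fun a ha b hb => rcc_commute_right h (e ▸ ha) hb

theorem rcc_sup_commute {A B : Subgroup G} (h : RootCommutatorCase S A B) :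
    ∀ a ∈ A, ∀ c ∈ ⁅A, B⁆, Commute a c := fun _ ha _ hc => (rcc_commute_left h hc ha).symm

/-- `A ⊔ ⁅A, B⁆` is covered by the conjugates of `A` under `B` and by `⁅A, B⁆`. -/
theorem rcc_cover {A B : Subgroup G} (h : RootCommutatorCase S A B) {x : G}
    (hx : x ∈ A ⊔ ⁅A, B⁆) : x ∈ ⁅A, B⁆ ∨ ∃ b ∈ B, x ∈ conjBy A b := by
  obtain ⟨a, ha, c, hc, rfl⟩ := exists_mul_of_mem_sup (rcc_sup_commute h) hx
  rcases eq_or_ne a 1 with rfl | ha1
  · exact Or.inl (by rwa [one_mul])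
  · obtain ⟨b, hb, e⟩ := rcc_exists_conj h ha ha1 hc
    refine Or.inr ⟨b, hb, ?_⟩
    rw [(rcc_sup_commute h a ha c hc).eq, ← e]
    exact conj_mem_conjBy ha

theorem rcc_conjBy_le {A B : Subgroup G} (h : RootCommutatorCase S A B) {b : G} (hb : b ∈ B) :
    conjBy A b ≤ A ⊔ ⁅A, B⁆ := by
  intro x hx
  rw [mem_conjBy] at hx
  have h2 : x = ((b⁻¹ * x * b) * b * (b⁻¹ * x * b)⁻¹ * b⁻¹)⁻¹ * (b⁻¹ * x * b) := by group
  rw [h2]
  exact Subgroup.mul_mem _ (Subgroup.inv_mem _ (Subgroup.mem_sup_right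
    (mem_commutator_of_mem hx hb))) (Subgroup.mem_sup_left hx)

section NonIsolated

variable (hS : IsRootSubgroupSet S) {A A' B : Subgroup G} (hA : A ∈ S) (hA' : A' ∈ S)
  (hp : IsRankOnePair A A') (h : RootCommutatorCase S A B)
include hS hA hA' hp h

theorem rcc_eq_one_of_commute {a b : G} (ha : a ∈ A) (ha1 : a ≠ 1) (hb : b ∈ B)
    (hc : Commute a b) : b = 1 := by
  by_contra hb1
  have he : conjBy A b = A := by
    refine eq_of_mem_of_mem hS hA hA' (hS.conj_mem A hA b) hp ha ha1 ?_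
    rw [mem_conjBy, mul_assoc, hc.eq, inv_mul_cancel_left]
    exact ha
  apply rcc_ne_bot hS h
  rw [← h.2.2.2 b hb hb1, eq_bot_iff, Subgroup.closure_le]
  rintro _ ⟨a', ha', rfl⟩
  rw [SetLike.mem_coe, Subgroup.mem_bot]
  by_contra hne
  have h1 : a' * b * a'⁻¹ * b⁻¹ ∈ A := by
    rw [show a' * b * a'⁻¹ * b⁻¹ = a' * (b * a'⁻¹ * b⁻¹) by group]
    exact A.mul_mem ha' (he ▸ conj_mem_conjBy (A.inv_mem ha'))
  exact rcc_left_ne hS h (eq_of_mem_of_mem hS hA hA' h.1 hp h1 hne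
    (mem_commutator_of_mem ha' hb)).symm

theorem rcc_commutator_inj {a b b' : G} (ha : a ∈ A) (ha1 : a ≠ 1) (hb : b ∈ B) (hb' : b' ∈ B)
    (he : a * b * a⁻¹ * b⁻¹ = a * b' * a⁻¹ * b'⁻¹) : b = b' := by
  have h1 : b * a⁻¹ * b⁻¹ = b' * a⁻¹ * b'⁻¹ :=
    mul_left_cancel (a := a) (by simpa [mul_assoc] using he)
  have h2 : Commute a (b'⁻¹ * b) := by
    refine Commute.inv_left_iff.1 ?_
    show a⁻¹ * (b'⁻¹ * b) = b'⁻¹ * b * a⁻¹
    calc a⁻¹ * (b'⁻¹ * b) = b'⁻¹ * (b' * a⁻¹ * b'⁻¹) * b := by group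
      _ = b'⁻¹ * b * a⁻¹ := by rw [← h1]; group
  exact (inv_mul_eq_one.1 (rcc_eq_one_of_commute hS hA hA' hp h ha ha1
    (B.mul_mem (B.inv_mem hb') hb) h2)).symm

/-- No nonidentity element of `⁅A, B⁆` centralizes a partner of `A`. -/
theorem rcc_eq_one_of_centralizes {c : G} (hc : c ∈ ⁅A, B⁆)
    (hcA' : ∀ x ∈ A', Commute c x) : c = 1 := by
  obtain ⟨a, ha, ha1⟩ := exists_ne_one_of_ne_bot (ne_bot_left hp)
  obtain ⟨b, hb, e⟩ := rcc_exists_conj h ha ha1 hc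
  exact (eq_of_mul_mem hS hA hA' (hS.conj_mem A hA b) hp
    (commute_of_sup (fun x hx => rcc_commute_left h hc hx) hcA') ha ha1
    (e ▸ conj_mem_conjBy ha)).2

/-- `⁅A, B⁆` contains no other member. -/
theorem rcc_eq_of_le {E : Subgroup G} (hE : E ∈ S) (hle : E ≤ ⁅A, B⁆) : E = ⁅A, B⁆ := by
  obtain ⟨e, he, he1⟩ := exists_ne_one_of_ne_bot (hS.ne_bot E hE)
  rcases hS.pair A' hA' _ h.1 with h1 | h1 | h1
  · refine absurd (rcc_eq_one_of_centralizes hS hA hA' hp h (hle he) ?_) he1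
    exact fun x hx => (commutator_eq_bot_iff_forall_commute.1 h1 x hx e (hle he)).symm
  · exact eq_of_mem_of_mem hS h.1 hA' hE (RankOnePair_symm h1) (hle he) he1 he
  · rcases hS.pair A' hA' E hE with h2 | h2 | h2
    · refine absurd (rcc_eq_one_of_centralizes hS hA hA' hp h (hle he) ?_) he1
      exact fun x hx => (commutator_eq_bot_iff_forall_commute.1 h2 x hx e he).symm
    · exact (eq_of_mem_of_mem hS hE hA' h.1 (RankOnePair_symm h2) he he1 (hle he)).symm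
    · refine le_antisymm hle fun c hc => ?_
      obtain ⟨f, hf, hf1⟩ := exists_ne_one_of_ne_bot (ne_bot_right hp)
      have hsub : ⁅A', ⁅A, B⁆⁆ ≤ ⁅A', E⁆ := by
        rw [← h1.2.2.2 e (hle he) he1, Subgroup.closure_le]
        rintro _ ⟨x, hx, rfl⟩
        exact mem_commutator_of_mem hx he
      obtain ⟨e', he', hee⟩ :=
        rcc_exists_commutator h2 hf hf1 (hsub (mem_commutator_of_mem hf hc))
      -- injectivity for the pair `(A', ⁅A, B⁆)`
      have h3 : f * c * f⁻¹ * c⁻¹ = f * e' * f⁻¹ * e'⁻¹ := hee.symm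
      have h1' : c * f⁻¹ * c⁻¹ = e' * f⁻¹ * e'⁻¹ :=
        mul_left_cancel (a := f) (by simpa [mul_assoc] using h3)
      have h4 : Commute f (e'⁻¹ * c) := by
        refine Commute.inv_left_iff.1 ?_
        show f⁻¹ * (e'⁻¹ * c) = e'⁻¹ * c * f⁻¹
        calc f⁻¹ * (e'⁻¹ * c) = e'⁻¹ * (e' * f⁻¹ * e'⁻¹) * c := by group
          _ = e'⁻¹ * c * f⁻¹ := by rw [← h1']; group
      have hmem : e'⁻¹ * c ∈ ⁅A, B⁆ := Subgroup.mul_mem _ (Subgroup.inv_mem _ (hle he')) hc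
      have h5 : e'⁻¹ * c = 1 := by
        by_contra hne
        have hfix : conjBy A' (e'⁻¹ * c) = A' := by
          refine eq_of_mem_of_mem hS hA' hA (hS.conj_mem A' hA' _) (RankOnePair_symm hp) hf hf1 ?_
          rw [mem_conjBy, mul_assoc, h4.eq, inv_mul_cancel_left]
          exact hf
        apply rcc_ne_bot hS h1
        rw [← h1.2.2.2 _ hmem hne, eq_bot_iff, Subgroup.closure_le]
        rintro _ ⟨x, hx, rfl⟩
        rw [SetLike.mem_coe, Subgroup.mem_bot]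
        by_contra hne'
        have hxA : x * (e'⁻¹ * c) * x⁻¹ * (e'⁻¹ * c)⁻¹ ∈ A' := by
          rw [show x * (e'⁻¹ * c) * x⁻¹ * (e'⁻¹ * c)⁻¹
              = x * ((e'⁻¹ * c) * x⁻¹ * (e'⁻¹ * c)⁻¹) by group]
          exact A'.mul_mem hx (by
            have := conj_mem_conjBy (g := e'⁻¹ * c) (A'.inv_mem hx)
            rwa [hfix] at this)
        exact rcc_left_ne hS h1 (eq_of_mem_of_mem hS hA' hA h1.1 (RankOnePair_symm hp) hxA hne'
          (mem_commutator_of_mem hx hmem)).symm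
      exact (inv_mul_eq_one.1 h5) ▸ he'

/-- The members in `A ⊔ ⁅A, B⁆`. -/
theorem rcc_membersIn :
    membersIn S (A ⊔ ⁅A, B⁆) = (fun b : G => conjBy A b) '' (B : Set G) ∪ {⁅A, B⁆} := by
  ext E
  constructor
  · rintro ⟨hE, hle⟩
    by_cases hEC : E ≤ ⁅A, B⁆
    · exact Or.inr (rcc_eq_of_le hS hA hA' hp h hE hEC)
    · obtain ⟨x, hxE, hxC⟩ := SetLike.not_le_iff_exists.1 hEC
      obtain ⟨b, hb, hxb⟩ := (rcc_cover h (hle hxE)).resolve_left hxC
      have hx1 : x ≠ 1 := fun e => hxC (e ▸ Subgroup.one_mem _)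
      exact Or.inl ⟨b, hb, (eq_of_mem_of_mem hS (hS.conj_mem A hA b) (hS.conj_mem A' hA' b) hE
        (isRankOnePair_conjBy hp b) hxb hx1 hxE).symm⟩
  · rintro (⟨b, hb, rfl⟩ | rfl)
    · exact ⟨hS.conj_mem A hA b, rcc_conjBy_le h hb⟩
    · exact ⟨h.1, le_sup_right⟩

theorem rcc_partition :
    IsSubgroupPartition (A ⊔ ⁅A, B⁆) (membersIn S (A ⊔ ⁅A, B⁆)) := by
  refine ⟨fun E hE => hE.2, fun x hx _ => ?_, ?_⟩
  · rcases rcc_cover h hx with h1 | ⟨b, hb, h1⟩
    · exact ⟨_, ⟨h.1, le_sup_right⟩, h1⟩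
    · exact ⟨_, ⟨hS.conj_mem A hA b, rcc_conjBy_le h hb⟩, h1⟩
  · intro E hE F hF hne
    rw [Subgroup.eq_bot_iff_forall]
    intro x hx
    by_contra hx1
    rw [rcc_membersIn hS hA hA' hp h] at hE hF
    rcases hE with ⟨b, hb, rfl⟩ | rfl
    · exact hne (eq_of_mem_of_mem hS (hS.conj_mem A hA b) (hS.conj_mem A' hA' b)
        (by rcases hF with ⟨b', -, rfl⟩ | rfl
            · exact hS.conj_mem A hA b'
            · exact h.1) (isRankOnePair_conjBy hp b) hx.1 hx1 hx.2).symm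
    · rcases hF with ⟨b, hb, rfl⟩ | rfl
      · exact hne (eq_of_mem_of_mem hS (hS.conj_mem A hA b) (hS.conj_mem A' hA' b)
          h.1 (isRankOnePair_conjBy hp b) hx.2 hx1 hx.1)
      · exact hne rfl

theorem rcc_linePartners : A ∈ linePartners S ⁅A, B⁆ ∧ ⁅A, B⁆ ∈ linePartners S A := by
  have hc : ⁅⁅A, B⁆, A⁆ = ⊥ :=
    commutator_eq_bot_iff_forall_commute.2 fun c hc a ha => rcc_commute_left h hc ha
  refine ⟨⟨⟨hA, rcc_left_ne hS h, hc⟩, ?_⟩, ⟨h.1, (rcc_left_ne hS h).symm, ?_⟩, ?_⟩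
  · rw [sup_comm]; exact rcc_partition hS hA hA' hp h
  · rwa [Subgroup.commutator_comm]
  · exact rcc_partition hS hA hA' hp h

end NonIsolated

/-- The key configuration: `A'` a partner of `A`, `B` commutes with `A`, `(A', B)` in the
commutator case and `a b` a root element. -/
theorem line_key (hS : IsRootSubgroupSet S) {A A' B D : Subgroup G} (hA : A ∈ S) (hA' : A' ∈ S)
    (hB : B ∈ S) (hD : D ∈ S) (hp : IsRankOnePair A A') (hAB : ⁅A, B⁆ = ⊥)
    (h : RootCommutatorCase S A' B) {a b : G} (ha : a ∈ A) (ha1 : a ≠ 1) (hb : b ∈ B)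
    (hb1 : b ≠ 1) (hab : a * b ∈ D) :
    RootCommutatorCase S A ⁅A', B⁆ ∧ (∃ k ∈ ⁅A', B⁆, D = conjBy A k) ∧
      b ∈ ⁅A, ⁅A', B⁆⁆ := by
  have hcAB := commutator_eq_bot_iff_forall_commute.1 hAB
  obtain ⟨f, hf, hf1⟩ := exists_ne_one_of_ne_bot (ne_bot_right hp)
  have hk1 : f * b * f⁻¹ * b⁻¹ ≠ 1 := fun e =>
    hb1 (rcc_eq_one_of_commute hS hA' hA (RankOnePair_symm hp) h hf hf1 hb
      (mul_inv_eq_iff_eq_mul.1 (mul_inv_eq_one.1 e)))
  have hk : f * b * f⁻¹ * b⁻¹ ∈ ⁅A', B⁆ := mem_commutator_of_mem hf hb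
  rcases hS.pair A hA _ h.1 with h1 | h1 | h1
  · exfalso
    -- a nonidentity element of `⁅A', B⁆` would centralize `⟨A, A'⟩`
    refine hk1 (inv_eq_one.1 (eq_of_mul_mem hS hA' hA (hS.conj_mem A' hA' b)
      (RankOnePair_symm hp) (z := (f * b * f⁻¹ * b⁻¹)⁻¹) (commute_of_sup
        (fun x hx => (rcc_commute_left h hk hx).inv_left)
        (fun x hx => ((commutator_eq_bot_iff_forall_commute.1 h1 x hx _ hk).symm).inv_left))
      hf hf1 ?_).2)
    rw [show (f * b * f⁻¹ * b⁻¹)⁻¹ * f = b * f * b⁻¹ by group]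
    exact conj_mem_conjBy hf
  · exfalso
    refine hb1 (eq_of_mul_mem hS h.1 hA (hS.conj_mem B hB f) (RankOnePair_symm h1) (z := b)
      (commute_of_sup (fun x hx => (rcc_commute_right h hx hb).symm)
        (fun x hx => (hcAB x hx b hb).symm)) hk hk1 ?_).2
    rw [(rcc_commute_right h hk hb).symm.eq, inv_mul_cancel_right]
    exact conj_mem_conjBy hb
  · refine ⟨h1, ?_⟩
    obtain ⟨a₀, hp₀⟩ := exists_paired_right hp hf hf1
    -- `z = b l` centralizes `⟨A, A'⟩`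
    let k₁ := b⁻¹ * (f⁻¹ * b * f)
    have hk₁ : k₁ ∈ ⁅A', B⁆ := by
      have h2 : k₁ = b⁻¹ * (f⁻¹ * b * f * b⁻¹) * b := by simp only [k₁]; group
      rw [h2]
      have h3 : f⁻¹ * b * f * b⁻¹ ∈ ⁅A', B⁆ := by
        simpa using mem_commutator_of_mem (A'.inv_mem hf) hb
      rwa [mul_assoc, (rcc_commute_right h h3 hb).eq, inv_mul_cancel_left]
    let l := a₀ * k₁ * a₀⁻¹ * k₁⁻¹
    have hl : l ∈ ⁅A, ⁅A', B⁆⁆ := mem_commutator_of_mem hp₀.1 hk₁
    have hzA : ∀ x ∈ A, Commute (b * l) x := fun x hx =>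
      ((hcAB x hx b hb).symm).mul_left (rcc_commute_left h1 hl hx)
    have hzA' : ∀ x ∈ A', Commute (b * l) x := by
      intro x hx
      -- `f⁻¹ b f` centralizes `conjBy A f⁻¹ = conjBy A' a₀⁻¹`
      have h4 : conjBy A f⁻¹ = conjBy A' a₀⁻¹ := hp₀.2.2.2.2
      have h5 : a₀⁻¹ * x * a₀ ∈ conjBy A f⁻¹ := by
        rw [h4, mem_conjBy]; simpa [mul_assoc] using hx
      rw [mem_conjBy, inv_inv] at h5
      have h6 : Commute (f⁻¹ * b * f) (a₀⁻¹ * x * a₀) := by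
        have h6' : Commute b (f * (a₀⁻¹ * x * a₀) * f⁻¹) := (hcAB _ h5 b hb).symm
        have h7 := h6'.map (MulAut.conj f⁻¹).toMonoidHom
        simpa [mul_assoc] using h7
      have h8 : Commute (a₀ * (f⁻¹ * b * f) * a₀⁻¹) x := by
        have h7 := h6.map (MulAut.conj a₀).toMonoidHom
        simpa [mul_assoc] using h7
      have h9 : a₀ * (f⁻¹ * b * f) * a₀⁻¹ = b * l * k₁ := by
        have hb' : a₀ * b = b * a₀ := (hcAB a₀ hp₀.1 b hb).eq
        simp only [l, k₁]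
        calc a₀ * (f⁻¹ * b * f) * a₀⁻¹ = (a₀ * b) * (b⁻¹ * (f⁻¹ * b * f)) * a₀⁻¹ := by group
          _ = (b * a₀) * (b⁻¹ * (f⁻¹ * b * f)) * a₀⁻¹ := by rw [hb']
          _ = _ := by group
      rw [h9] at h8
      have h10 := h8.mul_left (rcc_commute_left h hk₁ hx).inv_left
      rwa [mul_inv_cancel_right] at h10
    obtain ⟨k, hkm, hke⟩ := rcc_exists_conj h1 ha ha1 (Subgroup.inv_mem _ hl)
    have hA1 : conjBy A' k = A' := conjBy_of_commute fun x hx => rcc_commute_left h hkm hx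
    have hp1 : IsRankOnePair (conjBy A k) A' := by
      have := isRankOnePair_conjBy hp k
      rwa [hA1] at this
    have hzk : Commute (b * l) k :=
      ((rcc_commute_right h hkm hb).symm).mul_left (rcc_commute_right h1 hl hkm)
    have hz1 : ∀ x ∈ conjBy A k, Commute (b * l) x := by
      intro x hx
      rw [mem_conjBy] at hx
      have := (hzk.mul_right (hzA _ hx)).mul_right hzk.inv_right
      simpa [mul_assoc] using this
    have hmem : b * l * (k * a * k⁻¹) ∈ D := by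
      rw [hke, mul_assoc, mul_inv_cancel_left]
      rwa [← (hcAB a ha b hb).eq]
    obtain ⟨hDeq, hz⟩ := eq_of_mul_mem hS (hS.conj_mem A hA k) hA' hD hp1
      (commute_of_sup hz1 hzA') (conj_mem_conjBy ha)
      (fun e => ha1 (by simpa [mul_inv_eq_one] using e)) hmem
    refine ⟨⟨k, hkm, hDeq⟩, ?_⟩
    rw [eq_inv_of_mul_eq_one_left hz]
    exact Subgroup.inv_mem _ hl

/-- The structure of a line `A B` seen from a partner `A'` of `A`: it has a member `T` in the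
commutator case with `A'`, and `T = ⁅A, ⁅A', T⁆⁆`, `A T = A B`. -/
theorem line_structure (hS : IsRootSubgroupSet S) {A A' B : Subgroup G} (hA : A ∈ S)
    (hA' : A' ∈ S) (hp : IsRankOnePair A A') (hB : B ∈ linePartners S A) :
    ∃ T ∈ membersIn S (A ⊔ B), RootCommutatorCase S A' T ∧
      RootCommutatorCase S A ⁅A', T⁆ ∧ ⁅A, ⁅A', T⁆⁆ = T ∧ A ⊔ T = A ⊔ B := by
  obtain ⟨⟨hBS, hBA, hAB⟩, -, hcov, -⟩ := hB
  have hcAB := commutator_eq_bot_iff_forall_commute.1 hAB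
  -- members of the line other than `A` meet `A` trivially
  have hTA : ∀ T ∈ S, T ≠ A → ∀ x ∈ T, x ∈ A → x = 1 := fun T hT hne x hxT hxA => by
    by_contra hx1
    exact hne (eq_of_mem_of_mem hS hA hA' hT hp hxA hx1 hxT)
  have habel : ∀ x ∈ A ⊔ B, ∀ y ∈ A, Commute x y := by
    intro x hx y hy
    haveI := hS.commutative A hA
    exact (commute_of_sup (g := y) (fun z hz => commute_of_isMulCommutative hy hz)
      (fun z hz => hcAB y hy z hz) x hx).symm
  have hline : ∀ T ∈ membersIn S (A ⊔ B), T ≠ A → RootCommutatorCase S A' T →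
      RootCommutatorCase S A ⁅A', T⁆ ∧ ⁅A, ⁅A', T⁆⁆ = T := by
    intro T hT hne h
    obtain ⟨a, ha, ha1⟩ := exists_ne_one_of_ne_bot (ne_bot_left hp)
    have hc : ⁅A, T⁆ = ⊥ :=
      commutator_eq_bot_iff_forall_commute.2 fun x hx y hy => (habel y (hT.2 hy) x hx).symm
    have main : ∀ t ∈ T, t ≠ 1 →
        RootCommutatorCase S A ⁅A', T⁆ ∧ t ∈ ⁅A, ⁅A', T⁆⁆ := by
      intro t ht ht1
      have hne1 : a * t ≠ 1 := fun e =>
        ha1 (inv_eq_one.1 (by
          have := hTA T hT.1 hne t ht (eq_inv_of_mul_eq_one_right e ▸ A.inv_mem ha)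
          exact absurd this ht1))
      obtain ⟨D, hD, hmem⟩ := hcov (a * t)
        (Subgroup.mul_mem _ (Subgroup.mem_sup_left ha) (hT.2 ht)) hne1
      obtain ⟨h1, -, h2⟩ := line_key hS hA hA' hT.1 hD.1 hp hc h ha ha1 ht ht1 hmem
      exact ⟨h1, h2⟩
    obtain ⟨t, ht, ht1⟩ := exists_ne_one_of_ne_bot (hS.ne_bot T hT.1)
    obtain ⟨h1, -⟩ := main t ht ht1
    refine ⟨h1, (rcc_eq_of_le hS hA hA' hp h1 hT.1 fun x hx => ?_).symm⟩
    rcases eq_or_ne x 1 with rfl | hx1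
    · exact Subgroup.one_mem _
    · exact (main x hx hx1).2
  rcases hS.pair A' hA' B hBS with h | h | h
  · exfalso
    obtain ⟨a, ha, ha1⟩ := exists_ne_one_of_ne_bot (ne_bot_left hp)
    obtain ⟨b, hb, hb1⟩ := exists_ne_one_of_ne_bot (hS.ne_bot B hBS)
    have hne1 : b * a ≠ 1 := fun e =>
      hb1 (hTA B hBS hBA b hb (eq_inv_of_mul_eq_one_left e ▸ A.inv_mem ha))
    obtain ⟨D, hD, hmem⟩ := hcov (b * a)
      (Subgroup.mul_mem _ (Subgroup.mem_sup_right hb) (Subgroup.mem_sup_left ha)) hne1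
    exact hb1 (eq_of_mul_mem hS hA hA' hD.1 hp (commute_of_sup (fun x hx => (hcAB x hx b hb).symm)
      (fun x hx => (commutator_eq_bot_iff_forall_commute.1 h x hx b hb).symm)) ha ha1 hmem).2
  · -- look for the member that is not a partner of `A'`
    obtain ⟨f, hf, hf1⟩ := exists_ne_one_of_ne_bot (ne_bot_right hp)
    obtain ⟨a, hpa⟩ := exists_paired_right hp hf hf1
    obtain ⟨b, hpb⟩ := exists_paired h hf hf1
    have hy1 : b * a⁻¹ ≠ 1 := fun e => hpb.2.2.2.1 (hTA B hBS hBA b hpb.2.2.1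
      ((mul_inv_eq_one.1 e) ▸ hpa.1))
    obtain ⟨T, hT, hyT⟩ := hcov (b * a⁻¹) (Subgroup.mul_mem _ (Subgroup.mem_sup_right hpb.2.2.1)
      (Subgroup.inv_mem _ (Subgroup.mem_sup_left hpa.1))) hy1
    have hne : T ≠ A := by
      rintro rfl
      refine hpb.2.2.2.1 (hTA B hBS hBA b hpb.2.2.1 ?_)
      simpa using T.mul_mem hyT hpa.1
    have hyA : ∀ x ∈ A, Commute (b * a⁻¹) x := fun x hx => habel _ (hT.2 hyT) x hx
    -- `A'` commutes with its conjugate by `(b a⁻¹)⁻¹`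
    have hcomm : ∀ x ∈ A', ∀ x' ∈ conjBy A' (b * a⁻¹)⁻¹, Commute x x' := by
      intro x hx x' hx'
      rw [mem_conjBy, inv_inv] at hx'
      have e1 : a⁻¹ * x * a ∈ conjBy A f⁻¹ := by
        rw [hpa.2.2.2.2, mem_conjBy]; simpa [mul_assoc] using hx
      have e2 : b⁻¹ * ((b * a⁻¹) * x' * (b * a⁻¹)⁻¹) * b ∈ conjBy B f⁻¹ := by
        rw [← hpb.2.2.2.2, mem_conjBy]; simpa [mul_assoc] using hx'
      rw [mem_conjBy, inv_inv] at e1 e2
      have e3 := (hcAB _ e1 _ e2).map (MulAut.conj f⁻¹).toMonoidHom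
      have e4 := e3.map (MulAut.conj a).toMonoidHom
      simpa [mul_assoc] using e4
    rcases hS.pair A' hA' T hT.1 with h' | h' | h'
    · exfalso
      refine hy1 (eq_of_mul_mem hS hA hA' hBS hp (commute_of_sup hyA
        (fun x hx => (commutator_eq_bot_iff_forall_commute.1 h' x hx _ hyT).symm))
        hpa.1 hpa.2.1 ?_).2
      rw [inv_mul_cancel_right]
      exact hpb.2.2.1
    · exfalso
      have hne' : conjBy A' (b * a⁻¹)⁻¹ ≠ A' := fun e =>
        hy1 (inv_eq_one.1 (eq_one_of_mem_normalizer (RankOnePair_symm h') (T.inv_mem hyT) e))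
      obtain ⟨x, hx, hx1⟩ := exists_ne_one_of_ne_bot (hS.ne_bot A' hA')
      have hmem' := conj_mem_conjBy (g := (b * a⁻¹)⁻¹) hx
      refine not_commute (isRankOnePair_of_mem h'
        (conjBy_mem_unipotent (left_mem_unipotent A' T)
          (Subgroup.mem_sup_right (T.inv_mem hyT))) (left_mem_unipotent A' T) hne') hmem'
        (fun e => hx1 (by
          have := congrArg (fun y => (b * a⁻¹) * y * (b * a⁻¹)⁻¹) e
          simpa [mul_assoc] using this)) hx hx1 (hcomm x hx _ hmem').symm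
    · obtain ⟨h1, h2⟩ := hline T hT hne h'
      refine ⟨T, hT, h', h1, h2, le_antisymm (sup_le le_sup_left hT.2) (sup_le le_sup_left ?_)⟩
      -- `B` is a conjugate of `A` inside `A T`
      have hc : ⁅A, T⁆ = ⊥ :=
        commutator_eq_bot_iff_forall_commute.2 fun x hx y hy => (habel y (hT.2 hy) x hx).symm
      have hmem : a * (b * a⁻¹) ∈ B := by
        rw [(hyA a hpa.1).symm.eq, inv_mul_cancel_right]; exact hpb.2.2.1
      obtain ⟨-, ⟨k, hk, hBk⟩, -⟩ := line_key hS hA hA' hT.1 hBS hp hc h' hpa.1 hpa.2.1 hyT hy1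
        hmem
      have h3 := rcc_conjBy_le h1 hk
      rwa [h2, ← hBk] at h3
  · obtain ⟨h1, h2⟩ := hline B ⟨hBS, le_sup_right⟩ hBA h
    exact ⟨B, ⟨hBS, le_sup_right⟩, h, h1, h2, rfl⟩

end CfsgLib.RootGroups
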