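import Cfsg.Agent.Lib.RootGroups.Lines

/-!
Nilpotency of subgroups generated by members in the commutator case.
-/

set_option autoImplicit false
set_option linter.style.haveILetI false

namespace CfsgLib.RootGroups

open Cfsg
open scoped commutatorElement

variable {G : Type*} [Group G]

/-- `u` lies in the `k`-th term of the upper central series of `R`. -/
def InUcs (R : Subgroup G) (k : ℕ) (u : G) : Prop :=
  ∃ hu : u ∈ R, (⟨u, hu⟩ : ↥R) ∈ Subgroup.upperCentralSeries ↥R k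

/-- The `k`-th term of the upper central series of `R`, inside `G`. -/
def ucsIn (R : Subgroup G) (k : ℕ) : Subgroup G :=
  (Subgroup.upperCentralSeries ↥R k).map R.subtype

theorem mem_ucsIn {R : Subgroup G} {k : ℕ} {u : G} : u ∈ ucsIn R k ↔ InUcs R k u := by
  constructor
  · rintro ⟨v, hv, rfl⟩; exact ⟨v.2, hv⟩
  · rintro ⟨hu, h⟩; exact ⟨⟨u, hu⟩, h, rfl⟩

theorem ucsIn_mono (R : Subgroup G) {i j : ℕ} (h : i ≤ j) : ucsIn R i ≤ ucsIn R j :=
  Subgroup.map_mono (Subgroup.upperCentralSeries_mono ↥R h)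

theorem ucsIn_conj {R : Subgroup G} {k : ℕ} {u x : G} (hx : x ∈ R) (hu : u ∈ ucsIn R k) :
    x * u * x⁻¹ ∈ ucsIn R k := by
  obtain ⟨v, hv, rfl⟩ := hu
  exact ⟨⟨x, hx⟩ * v * ⟨x, hx⟩⁻¹,
    (inferInstance : (Subgroup.upperCentralSeries ↥R k).Normal).conj_mem v hv _, rfl⟩

/-- To enter the next term it suffices to test the generators. -/
theorem mem_ucsIn_succ {R : Subgroup G} {T : Set G} (hT : Subgroup.closure T = R) {k : ℕ} {u : G}
    (hu : u ∈ R) (h : ∀ g ∈ T, u * g * u⁻¹ * g⁻¹ ∈ ucsIn R k) : u ∈ ucsIn R (k + 1) := by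
  refine mem_ucsIn.2 ⟨hu, (Subgroup.mem_upperCentralSeries_succ_iff (n := k)).2 fun r => ?_⟩
  have hall : ∀ g ∈ Subgroup.closure T, u * g * u⁻¹ * g⁻¹ ∈ ucsIn R k := by
    intro g hg
    induction hg using Subgroup.closure_induction with
    | mem g hg => exact h g hg
    | one => simpa using (ucsIn R k).one_mem
    | mul x y hx _ h1 h2 =>
      have := (ucsIn R k).mul_mem h1 (ucsIn_conj (hT ▸ hx) h2)
      convert this using 1; group
    | inv x hx h1 =>
      have := ucsIn_conj (R.inv_mem (hT ▸ hx)) ((ucsIn R k).inv_mem h1)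
      convert this using 1; group
  obtain ⟨v, hv, he⟩ := hall r (hT.symm ▸ r.2)
  have hv' : (⟨u, hu⟩ : ↥R) * r * ⟨u, hu⟩⁻¹ * r⁻¹ = v :=
    Subtype.ext (by simpa using he.symm)
  rw [commutatorElement_def, hv']; exact hv

theorem isNilpotent_of_ucsIn {R : Subgroup G} {k : ℕ} {T : Set G} (hT : Subgroup.closure T = R)
    (h : T ⊆ (ucsIn R k : Set G)) : Group.IsNilpotent ↥R := by
  refine ⟨k, eq_top_iff.2 fun r _ => ?_⟩
  have hr : (r : G) ∈ Subgroup.closure T := by rw [hT]; exact r.2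
  obtain ⟨v, hv, he⟩ := ((Subgroup.closure_le _).2 h) hr
  have : v = r := Subtype.ext he
  exact this ▸ hv

/-- Two subgroups whose mutual commutators are central in what they generate. -/
theorem commutator_mem_of_central {U V K : Subgroup G}
    (hU : ∀ u ∈ U, ∀ u' ∈ U, Commute u u') (hV : ∀ v ∈ V, ∀ v' ∈ V, Commute v v')
    (hK : ∀ k ∈ K, ∀ x ∈ U ⊔ V, Commute k x)
    (hUV : ∀ u ∈ U, ∀ v ∈ V, u * v * u⁻¹ * v⁻¹ ∈ K) :
    ∀ x ∈ U ⊔ V, ∀ y ∈ U ⊔ V, x * y * x⁻¹ * y⁻¹ ∈ K := by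
  have step : ∀ x ∈ U ⊔ V, ∀ y ∈ U ⊔ V, (∀ g ∈ (U : Set G) ∪ V, x * g * x⁻¹ * g⁻¹ ∈ K) →
      x * y * x⁻¹ * y⁻¹ ∈ K := by
    intro x hx y hy h
    rw [Subgroup.sup_eq_closure] at hy
    induction hy using Subgroup.closure_induction with
    | mem g hg => exact h g hg
    | one => simp
    | mul a b ha _ h1 h2 =>
      rw [← Subgroup.sup_eq_closure] at ha
      have := K.mul_mem h1 h2
      convert this using 1
      calc x * (a * b) * x⁻¹ * (a * b)⁻¹
          = (x * a * x⁻¹ * a⁻¹) * (a * (x * b * x⁻¹ * b⁻¹) * a⁻¹) := by group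
        _ = _ := by rw [← (hK _ h2 a ha).eq, mul_inv_cancel_right]
    | inv a ha h1 =>
      rw [← Subgroup.sup_eq_closure] at ha
      convert K.inv_mem h1 using 1
      calc x * a⁻¹ * x⁻¹ * a⁻¹⁻¹ = a⁻¹ * (x * a * x⁻¹ * a⁻¹)⁻¹ * a := by group
        _ = _ := by rw [mul_assoc, (hK _ (K.inv_mem h1) a ha).eq, inv_mul_cancel_left]
  intro x hx y hy
  refine step x hx y hy fun g hg => ?_
  have hgm : g ∈ U ⊔ V := hg.elim (fun h => Subgroup.mem_sup_left h) fun h =>
    Subgroup.mem_sup_right h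
  have := K.inv_mem (step g hgm x hx fun g' hg' => ?_)
  · convert this using 1; group
  · rcases hg with hg | hg <;> rcases hg' with hg' | hg'
    · rw [(hU g hg g' hg').eq]; simp
    · exact hUV g hg g' hg'
    · convert K.inv_mem (hUV g' hg' g hg) using 1; group
    · rw [(hV g hg g' hg').eq]; simp

variable {S : Set (Subgroup G)}

theorem class_two_of_not_rankOne (hS : IsRootSubgroupSet S) {U V : Subgroup G} (hU : U ∈ S)
    (hV : V ∈ S) (h : ¬ IsRankOnePair U V) : ⁅⁅U ⊔ V, U ⊔ V⁆, U ⊔ V⁆ = ⊥ := by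
  haveI := hS.commutative U hU
  haveI := hS.commutative V hV
  obtain ⟨K, hK, hle⟩ : ∃ K : Subgroup G, (∀ k ∈ K, ∀ x ∈ U ⊔ V, Commute k x) ∧ ⁅U, V⁆ ≤ K := by
    rcases hS.pair U hU V hV with h1 | h1 | h1
    · exact ⟨⊥, fun k hk x _ => by rw [Subgroup.mem_bot.1 hk]; exact Commute.one_left x, h1.le⟩
    · exact absurd h1 h
    · exact ⟨⁅U, V⁆, h1.2.1, le_rfl⟩
  rw [commutator_eq_bot_iff_forall_commute]
  intro k hk x hx
  refine hK k ?_ x hx
  suffices hsub : ⁅U ⊔ V, U ⊔ V⁆ ≤ K from hsub hk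
  rw [Subgroup.commutator_le]
  intro a ha b hb
  rw [commutatorElement_def]
  exact commutator_mem_of_central (fun _ h1 _ h2 => commute_of_isMulCommutative h1 h2)
    (fun _ h1 _ h2 => commute_of_isMulCommutative h1 h2) hK
    (fun _ h1 _ h2 => hle (mem_commutator_of_mem h1 h2)) a ha b hb

theorem isMulCommutative_sup_iff (hS : IsRootSubgroupSet S) {U V : Subgroup G} (hU : U ∈ S)
    (hV : V ∈ S) : IsMulCommutative ↥(U ⊔ V) ↔ ⁅U, V⁆ = ⊥ := by
  constructor
  · intro h
    exact commutator_eq_bot_iff_forall_commute.2 fun u hu v hv =>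
      commute_of_isMulCommutative (Subgroup.mem_sup_left hu) (Subgroup.mem_sup_right hv)
  · intro h
    haveI := hS.commutative U hU
    haveI := hS.commutative V hV
    refine ⟨⟨fun x y => Subtype.ext ?_⟩⟩
    exact Subgroup.mem_bot.1 (by
      have := commutator_mem_of_central (U := U) (V := V) (K := ⊥)
        (fun _ h1 _ h2 => commute_of_isMulCommutative h1 h2)
        (fun _ h1 _ h2 => commute_of_isMulCommutative h1 h2)
        (fun k hk z _ => by rw [Subgroup.mem_bot.1 hk]; exact Commute.one_left z)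
        (fun _ h1 _ h2 => h ▸ mem_commutator_of_mem h1 h2) x x.2 y y.2
      exact this) |> fun e => mul_inv_eq_iff_eq_mul.1 (mul_inv_eq_one.1 e)

end CfsgLib.RootGroups
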