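import Cfsg.Agent.Lib.RootGroups.Classes

/-!
Non-degenerate classes of abstract root subgroups: connectedness of the line graph, generation by
the line partners and a partner, weak TI subsets (Timmesfeld, II (2.21)-(2.23)).
-/

set_option autoImplicit false
set_option linter.style.haveILetI false

namespace CfsgLib.RootGroups

open Cfsg
open Relation (ReflTransGen)

variable {G : Type*} [Group G] {S : Set (Subgroup G)}

theorem linePartners_symm {A B : Subgroup G} (hA : A ∈ S) (h : B ∈ linePartners S A) :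
    A ∈ linePartners S B := by
  obtain ⟨⟨-, hne, hc⟩, hpart⟩ := h
  refine ⟨⟨hA, hne.symm, by rwa [Subgroup.commutator_comm]⟩, ?_⟩
  rwa [sup_comm]

theorem eAdj_symm {A B : Subgroup G} (h : EAdj S S A B) : EAdj S S B A :=
  ⟨h.2.1, h.1, linePartners_symm h.1 h.2.2⟩

theorem eReach_symm {A B : Subgroup G} (h : ReflTransGen (EAdj S S) A B) :
    ReflTransGen (EAdj S S) B A := by
  induction h with
  | refl => exact ReflTransGen.refl
  | tail _ hadj ih => exact ih.head (eAdj_symm hadj)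

theorem linePartners_conjBy (hS : IsRootSubgroupSet S) {A B : Subgroup G}
    (h : B ∈ linePartners S A) (g : G) : conjBy B g ∈ linePartners S (conjBy A g) := by
  obtain ⟨⟨hB, hne, hc⟩, -, hcov, hdis⟩ := h
  refine ⟨⟨hS.conj_mem B hB g, fun e => hne (conjBy_inj.1 e), ?_⟩, ?_⟩
  · rw [← conjBy_commutator]; exact conjBy_eq_bot.2 hc
  rw [← conjBy_sup]
  refine ⟨fun E hE => hE.2, fun x hx hx1 => ?_, fun C hC D hD hne' => ?_⟩
  · obtain ⟨E, hE, hxE⟩ := hcov _ (mem_conjBy.1 hx) (fun e => hx1 (by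
      have := congrArg (fun y => g * y * g⁻¹) e
      simpa [mul_assoc] using this))
    exact ⟨conjBy E g, ⟨hS.conj_mem E hE.1 g, conjBy_mono hE.2⟩, mem_conjBy.2 hxE⟩
  · have key : ∀ {C}, C ∈ membersIn S (conjBy (A ⊔ B) g) →
        conjBy C g⁻¹ ∈ membersIn S (A ⊔ B) := fun {C} hC => ⟨hS.conj_mem C hC.1 g⁻¹, by
      have := conjBy_mono (g := g⁻¹) hC.2
      rwa [conjBy_inv_cancel] at this⟩
    have h2 := hdis _ (key hC) _ (key hD) fun e => hne' (conjBy_inj.1 e)
    rw [Subgroup.eq_bot_iff_forall] at h2 ⊢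
    intro x hx
    have := h2 (g⁻¹ * x * g) (Subgroup.mem_inf.2 ⟨mem_conjBy.2 (by simpa [mul_assoc] using hx.1),
      mem_conjBy.2 (by simpa [mul_assoc] using hx.2)⟩)
    calc x = g * (g⁻¹ * x * g) * g⁻¹ := by group
      _ = 1 := by rw [this]; group

/-- In a non-degenerate class every member has a partner. -/
theorem nondeg_partner (hS : IsRootSubgroupClass S) (hnd : IsNondegenerateRootSet S)
    {A : Subgroup G} (hA : A ∈ S) : ∃ B ∈ S, IsRankOnePair A B := by
  obtain ⟨A₀, hA₀, B₀, hB₀, hp⟩ := hnd.2.1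
  exact exists_partner hS.2 hS.1 hA₀ hB₀ hp hA

theorem eReach_rankOne (hS : IsRootSubgroupClass S) (hnd : IsNondegenerateRootSet S)
    {A B : Subgroup G} (hA : A ∈ S) (hB : B ∈ S) (hp : IsRankOnePair A B) :
    ReflTransGen (EAdj S S) A B := by
  obtain ⟨⟨T, hT, h1, -, -⟩, -⟩ := nondeg_pair hS hnd hA hB hp
  have hTS : T ∈ S := hT.1.1
  obtain ⟨T', hT', hpT⟩ := nondeg_partner hS hnd hTS
  have e1 := (rcc_linePartners hS.1 hB hA (RankOnePair_symm hp) h1).1
  have e2 := (rcc_linePartners hS.1 hTS hT' hpT (rootCommutatorCase_symm h1)).2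
  rw [Subgroup.commutator_comm] at e2
  exact ((ReflTransGen.single (show EAdj S S A T from ⟨hA, hTS, hT⟩)).tail
    ⟨hTS, h1.1, e2⟩).tail ⟨h1.1, hB, e1⟩

theorem eReach_conjBy_rootElement (hS : IsRootSubgroupClass S) (hnd : IsNondegenerateRootSet S)
    {A D : Subgroup G} (hA : A ∈ S) (hD : D ∈ S) {d : G} (hd : d ∈ D) :
    ReflTransGen (EAdj S S) A (conjBy A d) := by
  rcases hS.1.pair A hA D hD with h | h | h
  · rw [conjBy_of_commute fun x hx => (commutator_eq_bot_iff_forall_commute.1 h x hx d hd).symm]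
  · have h2 := isRankOnePair_conjBy h d
    rw [conjBy_of_mem hd] at h2
    exact (eReach_rankOne hS hnd hA hD h).trans
      (eReach_symm (eReach_rankOne hS hnd (hS.1.conj_mem A hA d) hD h2))
  · obtain ⟨A', hA', hp⟩ := nondeg_partner hS hnd hA
    have h2 := rootCommutatorCase_conjBy hS.1 h d
    rw [conjBy_of_mem hd] at h2
    have hL : ⁅conjBy A d, D⁆ = ⁅A, D⁆ := by
      conv_lhs => rw [← conjBy_of_mem hd]
      rw [← conjBy_commutator, conjBy_commutator_of_mem (Subgroup.mem_sup_right hd)]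
    have e1 := (rcc_linePartners hS.1 hA hA' hp h).2
    have e2 := (rcc_linePartners hS.1 (hS.1.conj_mem A hA d) (hS.1.conj_mem A' hA' d)
      (isRankOnePair_conjBy hp d) h2).1
    rw [hL] at e2
    exact (ReflTransGen.single (show EAdj S S A ⁅A, D⁆ from ⟨hA, h.1, e1⟩)).tail
      ⟨h.1, hS.1.conj_mem A hA d, e2⟩

theorem eAdj_connected (hS : IsRootSubgroupClass S) (hnd : IsNondegenerateRootSet S) :
    IsConnectedFamily (EAdj S S) S := by
  let P : Subgroup G :=
    { carrier := {g | ∀ C ∈ S, ReflTransGen (EAdj S S) C (conjBy C g)}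
      one_mem' := fun C _ => by rw [conjBy_one]
      mul_mem' := by
        intro x y hx hy C hC
        rw [← conjBy_conjBy]
        exact (hy C hC).trans (hx _ (hS.1.conj_mem C hC y))
      inv_mem' := by
        intro x hx C hC
        have := hx _ (hS.1.conj_mem C hC x⁻¹)
        rw [conjBy_cancel_inv] at this
        exact eReach_symm this }
  have hP : (⊤ : Subgroup G) ≤ P := hS.1.generates ▸ iSup₂_le fun D hD d hd C hC =>
    eReach_conjBy_rootElement hS hnd hC hD hd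
  intro A hA B hB
  obtain ⟨g, rfl⟩ := hS.2.2 A hA B hB
  exact hP (Subgroup.mem_top g) A hA

/-- A commutator pair extends to the configuration of (2.19). -/
theorem exists_config (hS : IsRootSubgroupClass S) (hnd : IsNondegenerateRootSet S)
    {A B : Subgroup G} (hA : A ∈ S) (h : RootCommutatorCase S A B) :
    ∃ D ∈ S, RootCommutatorCase S D ⁅A, B⁆ ∧ ⁅D, ⁅A, B⁆⁆ = A ∧ D ∈ linePartners S A := by
  obtain ⟨A', hA', hp⟩ := nondeg_partner hS hnd hA
  obtain ⟨P, hP, hCP⟩ := nondeg_partner hS hnd h.1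
  obtain ⟨T, hT, g1, g2, g3, -⟩ :=
    line_structure hS.1 h.1 hP hCP (rcc_linePartners hS.1 hA hA' hp h).1
  have hTne : T ≠ ⁅A, B⁆ := fun e => rcc_left_ne hS.1 g2 (e.symm.trans g3.symm)
  rw [sup_comm, rcc_membersIn hS.1 hA hA' hp h] at hT
  obtain ⟨b, hb, rfl⟩ := hT.resolve_right hTne
  have hfix : conjBy ⁅A, B⁆ b⁻¹ = ⁅A, B⁆ :=
    conjBy_commutator_of_mem (Subgroup.mem_sup_right (B.inv_mem hb))
  have hD := rootCommutatorCase_conjBy hS.1 (rootCommutatorCase_symm g2) b⁻¹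
  rw [hfix] at hD
  have hDC : ⁅conjBy ⁅P, conjBy A b⁆ b⁻¹, ⁅A, B⁆⁆ = A := by
    conv_lhs => arg 2; rw [← hfix]
    rw [← conjBy_commutator, Subgroup.commutator_comm, g3, conjBy_inv_cancel]
  refine ⟨_, hS.1.conj_mem _ g1.1 b⁻¹, hD, hDC, ?_⟩
  obtain ⟨D', hD', hpD⟩ := nondeg_partner hS hnd (hS.1.conj_mem _ g1.1 b⁻¹)
  have := (rcc_linePartners hS.1 (hS.1.conj_mem _ g1.1 b⁻¹) hD' hpD hD).1
  rwa [hDC] at this

/-- The line partners of `A` and one partner of `A` generate `G`. -/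
theorem sup_linePartners_eq_top (hS : IsRootSubgroupClass S) (hnd : IsNondegenerateRootSet S)
    {A B : Subgroup G} (hA : A ∈ S) (hB : B ∈ S) (hp : IsRankOnePair A B) :
    (⨆ C ∈ linePartners S A, C) ⊔ B = ⊤ := by
  set M := (⨆ C ∈ linePartners S A, C) ⊔ B with hM
  have hline : ∀ C ∈ linePartners S A, C ≤ M := fun C hC =>
    le_sup_of_le_left (le_iSup₂_of_le C hC le_rfl)
  have aux : ∀ T ∈ linePartners S A, RootCommutatorCase S B T →
      RootCommutatorCase S A ⁅B, T⁆ → ⁅A, ⁅B, T⁆⁆ = T →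
      ⁅B, T⁆ ≤ M ∧ A ≤ M ∧ ∃ x ∈ M, T = conjBy A x := by
    intro T hT h1 h2 h3
    have hBM : B ≤ M := le_sup_right
    have hK : ⁅B, T⁆ ≤ M := Subgroup.commutator_le.2 fun x hx y hy =>
      M.mul_mem (M.mul_mem (M.mul_mem (hBM hx) (hline T hT hy)) (M.inv_mem (hBM hx)))
        (M.inv_mem (hline T hT hy))
    obtain ⟨D, hD, hD1, hD2, hD3⟩ := exists_config hS hnd hA h2
    rw [h3] at hD1 hD2
    have hA' : A ≤ M := hD2 ▸ Subgroup.commutator_le.2 fun x hx y hy =>
      M.mul_mem (M.mul_mem (M.mul_mem (hline D hD3 hx) (hline T hT hy))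
        (M.inv_mem (hline D hD3 hx))) (M.inv_mem (hline T hT hy))
    refine ⟨hK, hA', ?_⟩
    have horb := config_orbit hS.1 hA h1.1 hD h3 h2 hD1 hD2
    obtain ⟨x, hx, e⟩ : T ∈ {E | ∃ x ∈ ⁅B, T⁆ ⊔ D, E = conjBy A x} := horb ▸ Or.inr rfl
    exact ⟨x, sup_le hK (hline D hD3) hx, e⟩
  have hnbr : ∀ Q ∈ linePartners S A, ∃ x ∈ M, Q = conjBy A x := by
    intro Q hQ
    obtain ⟨T, hT, h1, h2, h3, h4⟩ := line_structure hS.1 hA hB hp hQ
    have hTline : T ∈ linePartners S A := by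
      have := (rcc_linePartners hS.1 hA hB hp h2).2
      rwa [h3] at this
    obtain ⟨hK, -, x, hx, e⟩ := aux T hTline h1 h2 h3
    have hQmem : Q ∈ membersIn S (A ⊔ ⁅A, ⁅B, T⁆⁆) := by
      rw [h3, h4]; exact ⟨hQ.1.1, le_sup_right⟩
    rw [rcc_membersIn hS.1 hA hB hp h2, h3] at hQmem
    rcases hQmem with ⟨k, hk, rfl⟩ | rfl
    · exact ⟨k, hK hk, rfl⟩
    · exact ⟨x, hx, e⟩
  have hA1 : A ≤ M := by
    obtain ⟨⟨T, hT, h1, h2, h3⟩, -⟩ := nondeg_pair hS hnd hA hB hp
    exact (aux T hT h1 h2 h3).2.1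
  have hall : ∀ P, ReflTransGen (EAdj S S) A P → ∃ x ∈ M, P = conjBy A x := by
    intro P hP
    induction hP with
    | refl => exact ⟨1, M.one_mem, (conjBy_one A).symm⟩
    | @tail P Q _ hadj ih =>
      obtain ⟨x, hx, rfl⟩ := ih
      have h2 := linePartners_conjBy hS.1 hadj.2.2 x⁻¹
      rw [conjBy_inv_cancel] at h2
      obtain ⟨y, hy, e⟩ := hnbr _ h2
      exact ⟨x * y, M.mul_mem hx hy, by rw [← conjBy_conjBy, ← e, conjBy_cancel_inv]⟩
  rw [eq_top_iff, ← hS.1.generates]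
  refine iSup₂_le fun P hP => ?_
  obtain ⟨x, hx, rfl⟩ := hall P (eAdj_connected hS hnd A hA P hP)
  exact conjBy_le_of_le hA1 hx

/-- A weak TI subset of a non-degenerate class is abelian. -/
theorem weakTI_abelian (hS : IsRootSubgroupClass S) (hnd : IsNondegenerateRootSet S)
    {Δ : Set (Subgroup G)} (hΔ : IsWeakTISubset S Δ) : IsAbelianFamily Δ := by
  obtain ⟨hsub, -, hne, hti⟩ := hΔ
  let M : Subgroup G :=
    { carrier := {g | (fun A => conjBy A g) '' Δ = Δ}
      one_mem' := by simp [conjBy_one]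
      mul_mem' := by
        intro x y hx hy
        simp only [Set.mem_ofPred_eq] at hx hy ⊢
        conv_rhs => rw [← hx, ← hy]
        rw [Set.image_image]
        simp [conjBy_conjBy]
      inv_mem' := by
        intro x hx
        simp only [Set.mem_ofPred_eq] at hx ⊢
        conv_lhs => rw [← hx]
        rw [Set.image_image]
        simp [conjBy_inv_cancel] }
  have hstab : ∀ D ∈ S, ∀ X ∈ Δ, (∀ d ∈ D, conjBy X d = X) → D ≤ M := by
    intro D hD X hX h d hd
    rcases eq_or_ne d 1 with rfl | hd1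
    · exact M.one_mem
    refine (hti d ⟨hd1, D, hD, hd⟩).resolve_right fun hdis => ?_
    exact Set.disjoint_left.1 hdis ⟨X, hX, h d hd⟩ hX
  have hcase1 : ∀ A ∈ Δ, ∀ B ∈ Δ, ¬ IsRankOnePair A B := by
    intro A hA B hB hp
    have htop : M = ⊤ := by
      rw [eq_top_iff, ← sup_linePartners_eq_top hS hnd (hsub hA) (hsub hB) hp]
      refine sup_le (iSup₂_le fun C hC => hstab C hC.1.1 A hA fun d hd => ?_)
        (hstab B (hsub hB) B hB fun d hd => conjBy_of_mem hd)
      exact conjBy_of_commute fun x hx =>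
        (commutator_eq_bot_iff_forall_commute.1 hC.1.2.2 x hx d hd).symm
    refine hne (hsub.antisymm fun P hP => ?_)
    obtain ⟨g, rfl⟩ := hS.2.2 A (hsub hA) P hP
    have hg : g ∈ M := htop ▸ Subgroup.mem_top g
    exact (show (fun A => conjBy A g) '' Δ = Δ from hg) ▸ ⟨A, hA, rfl⟩
  intro A hA B hB a ha b hb
  rcases hS.1.pair A (hsub hA) B (hsub hB) with h | h | h
  · exact commutator_eq_bot_iff_forall_commute.1 h a ha b hb
  · exact absurd h (hcase1 A hA B hB)
  · exfalso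
    obtain ⟨D, hD, hD1, hD2, hD3⟩ := exists_config hS hnd (hsub hA) h
    have hpBD := config_rankOne hS.1 (hsub hA) (hsub hB) hD rfl h hD1 hD2
    obtain ⟨x, hx, e⟩ := right_mem_unipotent hpBD
    have hxM : x ∈ M := sup_le (hstab B (hsub hB) B hB fun d hd => conjBy_of_mem hd)
      (hstab D hD A hA fun d hd => conjBy_of_commute fun y hy =>
        (commutator_eq_bot_iff_forall_commute.1 hD3.1.2.2 y hy d hd).symm) hx
    exact hcase1 B hB D ((show (fun A => conjBy A x) '' Δ = Δ from hxM) ▸ ⟨B, hB, e.symm⟩) hpBD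

end CfsgLib.RootGroups
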