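import Cfsg.Agent.Lib.RootGroups.RankOne

/-!
Rank one groups with a quadratic module (Timmesfeld, I (2.5), (2.7)).
-/

set_option autoImplicit false
set_option linter.style.haveILetI false

namespace CfsgLib.RootGroups

open Cfsg

variable {G : Type*} [Group G] {A B : Subgroup G} {N : Type*} [AddCommGroup N]
  [DistribMulAction G N]

/-- The additive subgroup `[N, A]`. -/
def commModule (A : Subgroup G) (N : Type*) [AddCommGroup N] [DistribMulAction G N] :
    AddSubgroup N :=
  AddSubgroup.closure {v | ∃ a ∈ A, ∃ n : N, v = a • n - n}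

theorem smul_sub_mem_commModule {a : G} (ha : a ∈ A) (n : N) : a • n - n ∈ commModule A N :=
  AddSubgroup.subset_closure ⟨a, ha, n, rfl⟩

theorem smul_mem_commModule_conjBy (g : G) {v : N} (hv : v ∈ commModule A N) :
    g • v ∈ commModule (conjBy A g) N := by
  refine AddSubgroup.closure_induction (fun x hx => ?_) ?_ (fun x y _ _ hx hy => ?_)
    (fun x _ hx => ?_) hv
  · obtain ⟨a, ha, n, rfl⟩ := hx
    rw [smul_sub, show g • a • n = (g * a * g⁻¹) • (g • n) by simp [mul_smul]]
    exact smul_sub_mem_commModule (conj_mem_conjBy ha) _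
  · rw [smul_zero]; exact zero_mem _
  · rw [smul_add]; exact add_mem hx hy
  · rw [smul_neg]; exact neg_mem hx

theorem smul_eq_of_mem_commModule (hq : ∀ a ∈ A, ∀ a' ∈ A, ∀ n : N, a' • (a • n - n) = a • n - n)
    {a : G} (ha : a ∈ A) {v : N} (hv : v ∈ commModule A N) : a • v = v := by
  refine AddSubgroup.closure_induction (fun x hx => ?_) ?_ (fun x y _ _ hx hy => ?_)
    (fun x _ hx => ?_) hv
  · obtain ⟨a', ha', n, rfl⟩ := hx
    exact hq a' ha' a ha n
  · rw [smul_zero]
  · rw [smul_add, hx, hy]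
  · rw [smul_neg, hx]

theorem quadratic_conjBy (hq : ∀ a ∈ A, ∀ a' ∈ A, ∀ n : N, a' • (a • n - n) = a • n - n)
    (g : G) : ∀ b ∈ conjBy A g, ∀ b' ∈ conjBy A g, ∀ n : N, b' • (b • n - n) = b • n - n := by
  intro b hb b' hb' n
  rw [mem_conjBy] at hb hb'
  have h := congrArg (g • ·) (hq _ hb _ hb' (g⁻¹ • n))
  simpa [mul_smul, smul_sub] using h

/-- The vectors fixed by all of `⟨A, B⟩`. -/
def FixedBy (A B : Subgroup G) (v : N) : Prop := ∀ x ∈ A ⊔ B, x • v = v

theorem fixedBy_add {v w : N} (hv : FixedBy A B v) (hw : FixedBy A B w) : FixedBy A B (v + w) :=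
  fun x hx => by rw [smul_add, hv x hx, hw x hx]

theorem fixedBy_neg {v : N} (hv : FixedBy A B v) : FixedBy A B (-v) :=
  fun x hx => by rw [smul_neg, hv x hx]

theorem fixedBy_zero : FixedBy A B (0 : N) := fun x _ => smul_zero x

theorem fixedBy_sub {v w : N} (hv : FixedBy A B v) (hw : FixedBy A B w) : FixedBy A B (v - w) :=
  sub_eq_add_neg v w ▸ fixedBy_add hv (fixedBy_neg hw)

theorem fixedBy_of_forall {v : N} (hA : ∀ a ∈ A, a • v = v) (hB : ∀ b ∈ B, b • v = v) :
    FixedBy A B v := fun x hx =>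
  MulAction.mem_stabilizer_iff.1 ((sup_le (fun a ha => MulAction.mem_stabilizer_iff.2 (hA a ha))
    fun b hb => MulAction.mem_stabilizer_iff.2 (hB b hb) :
      A ⊔ B ≤ MulAction.stabilizer G v) hx)

section

variable (h : IsRankOnePair A B)
  (hq : ∀ a ∈ A, ∀ a' ∈ A, ∀ n : N, a' • (a • n - n) = a • n - n)
include h hq

theorem quadratic_right : ∀ b ∈ B, ∀ b' ∈ B, ∀ n : N, b' • (b • n - n) = b • n - n := by
  obtain ⟨x, -, hx⟩ := right_mem_unipotent h
  rw [hx]
  exact quadratic_conjBy hq x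

/-- `1 + (a - 1)(b⁻¹ - 1)` kills `[N, A]` modulo the fixed vectors. -/
theorem fixedBy_key {a b : G} (hp : Paired A B a b) {v : N} (hv : v ∈ commModule A N) :
    FixedBy A B (v + (a • (b⁻¹ • v - v) - (b⁻¹ • v - v))) := by
  have hu : b⁻¹ • v - v ∈ commModule B N := smul_sub_mem_commModule (B.inv_mem hp.2.2.1) v
  have hw : (a * b⁻¹) • v ∈ commModule B N := by
    have := smul_mem_commModule_conjBy (a * b⁻¹) hv
    rwa [hp.conj_left] at this
  refine fixedBy_of_forall
    (fun x hx => smul_eq_of_mem_commModule hq hx (add_mem hv (smul_sub_mem_commModule hp.1 _)))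
    (fun x hx => smul_eq_of_mem_commModule (quadratic_right h hq) hx ?_)
  have : v + (a • (b⁻¹ • v - v) - (b⁻¹ • v - v)) = (a * b⁻¹) • v - (b⁻¹ • v - v) := by
    rw [smul_sub, smul_eq_of_mem_commModule hq hp.1 hv, mul_smul]
    abel
  rw [this]
  exact sub_mem hw hu

/-- `B` acts faithfully on `[N, A]` modulo fixed vectors. -/
theorem eq_one_of_fixedBy (hnt : ∃ v ∈ commModule A N, ¬ FixedBy A B v) {b : G} (hb : b ∈ B)
    (hfix : ∀ v ∈ commModule A N, FixedBy A B (b • v - v)) : b = 1 := by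
  by_contra hb1
  obtain ⟨a, hp⟩ := exists_paired_right h (B.inv_mem hb) (inv_ne_one.2 hb1)
  obtain ⟨v, hv, hnv⟩ := hnt
  have hk := fixedBy_key h hq hp hv
  rw [inv_inv, (hfix v hv) a (Subgroup.mem_sup_left hp.1), sub_self, add_zero] at hk
  exact hnv hk

/-- A rank one group with a nontrivial quadratic module is special. -/
theorem special_of_quadratic (hnt : ∃ v ∈ commModule A N, ¬ FixedBy A B v) :
    IsSpecialRankOnePair A B := by
  refine ⟨h, fun a ha ha1 b hb hb1 he => ?_⟩
  have hp : Paired A B a b := ⟨ha, ha1, hb, hb1, he⟩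
  have hb' : a * b⁻¹ * a * (a * b⁻¹)⁻¹ ∈ B := by
    have := conj_mem_conjBy (g := a * b⁻¹) ha
    rwa [hp.conj_left] at this
  have h1 : a * b⁻¹ * a * (a * b⁻¹)⁻¹ * b = 1 := by
    refine eq_one_of_fixedBy h hq hnt (B.mul_mem hb' hb) fun v hv => ?_
    have hav : ∀ x ∈ A, x • v = v := fun x hx => smul_eq_of_mem_commModule hq hx hv
    have hBq := quadratic_right h hq
    obtain ⟨p, hpdef⟩ : ∃ p, p = b • v - v := ⟨_, rfl⟩
    have hpB : ∀ x ∈ B, x • p = p := fun x hx =>
      smul_eq_of_mem_commModule hBq hx (hpdef ▸ smul_sub_mem_commModule hb v)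
    have hbv : b • v = v + p := by rw [hpdef]; abel
    have hbinv : b⁻¹ • v = v - p := by
      have := congrArg (b⁻¹ • ·) hbv
      simp only [inv_smul_smul, smul_add, hpB _ (B.inv_mem hb)] at this
      exact eq_sub_of_add_eq this.symm
    have hk := fixedBy_key h hq hp hv
    rw [hbinv, sub_sub_cancel_left, smul_neg] at hk
    obtain ⟨z, hz⟩ : ∃ z, z = v + (-(a • p) - -p) := ⟨_, rfl⟩
    rw [← hz] at hk
    have hap : a • p = v + p - z := by rw [hz]; abel
    have haz : a • z = z := hk a (Subgroup.mem_sup_left ha)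
    have hbz : b⁻¹ • z = z := hk _ (Subgroup.mem_sup_right (B.inv_mem hb))
    have hcalc : (a * b⁻¹ * a * (a * b⁻¹)⁻¹) • v + p - v = 0 := by
      rw [mul_inv_rev, inv_inv]
      simp only [mul_smul]
      rw [hav _ (A.inv_mem ha), hbv, smul_add, hav a ha, hap]
      simp only [smul_add, smul_sub, hbinv, hpB _ (B.inv_mem hb), hbz]
      simp only [smul_add, smul_sub, hav a ha, hap, haz]
      abel
    have hp' : (a * b⁻¹ * a * (a * b⁻¹)⁻¹) • p = p := hpB _ hb'
    rw [mul_smul, hbv, smul_add, hp', hcalc]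
    exact fixedBy_zero
  have h2 : a * b⁻¹ * a * b * a⁻¹ * b = 1 := by
    rw [mul_inv_rev, inv_inv] at h1
    simpa [mul_assoc] using h1
  calc b⁻¹ * a * b = a⁻¹ * (a * b⁻¹ * a * b * a⁻¹ * b) * b⁻¹ * a := by group
    _ = a⁻¹ * b⁻¹ * a := by rw [h2, mul_one]

/-- If every element of `[N, A]` is fixed, so is every `x n - n`. -/
theorem fixedBy_smul_sub (htriv : ∀ v ∈ commModule A N, FixedBy A B v) :
    ∀ x ∈ A ⊔ B, ∀ n : N, FixedBy A B (x • n - n) := by
  obtain ⟨w, hw, hwB⟩ := right_mem_unipotent h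
  intro x hx
  rw [Subgroup.sup_eq_closure] at hx
  have hgen : ∀ x ∈ (A : Set G) ∪ B, ∀ n : N, FixedBy A B (x • n - n) := by
    rintro x (hx | hx) n
    · exact htriv _ (smul_sub_mem_commModule hx n)
    · have hv : w⁻¹ • (x • n - n) ∈ commModule A N := by
        have := smul_mem_commModule_conjBy w⁻¹ (smul_sub_mem_commModule (A := B) hx n)
        rwa [hwB, conjBy_inv_cancel] at this
      have hf := htriv _ hv
      have := hf w hw
      rw [smul_inv_smul] at this
      rw [this]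
      exact hf
  induction hx using Subgroup.closure_induction'' with
  | one => intro n; rw [one_smul, sub_self]; exact fixedBy_zero
  | mul x y _ _ hx hy =>
    intro n
    rw [mul_smul, ← sub_add_sub_cancel (x • y • n) (y • n) n]
    exact fixedBy_add (hx _) (hy n)
  | mem x hx => exact hgen x hx
  | inv_mem x hx =>
    exact hgen x⁻¹ (hx.elim (fun h => Or.inl (A.inv_mem h)) fun h => Or.inr (B.inv_mem h))

/-- A faithful quadratic module is nontrivial. -/
theorem nontrivial_of_faithful (hf : ∀ x ∈ A ⊔ B, (∀ v : N, x • v = v) → x = 1) :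
    ∃ v ∈ commModule A N, ¬ FixedBy A B v := by
  by_contra hh
  push Not at hh
  have hfix := fixedBy_smul_sub h hq hh
  obtain ⟨a, b, hp⟩ := exists_paired_pair h
  have ha := Subgroup.mem_sup_left (T := B) hp.1
  have hb := Subgroup.mem_sup_right (S := A) hp.2.2.1
  refine not_commute h hp.1 hp.2.1 hp.2.2.1 hp.2.2.2.1 ?_
  have h1 : (b * a)⁻¹ * (a * b) = 1 := by
    refine hf _ (Subgroup.mul_mem _ (Subgroup.inv_mem _ (Subgroup.mul_mem _ hb ha))
      (Subgroup.mul_mem _ ha hb)) fun v => ?_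
    rw [mul_smul, inv_smul_eq_iff, mul_smul, mul_smul]
    have e1 := hfix b hb v a ha
    have e2 := hfix a ha v b hb
    rw [smul_sub, sub_eq_iff_eq_add] at e1 e2
    rw [e1, e2]
    abel
  exact (inv_mul_eq_one.1 h1).symm

end

end CfsgLib.RootGroups
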