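import Cfsg.Agent.Lib.RootGroups.Special
import Cfsg.Agent.Lib.SL2.Basic
import Cfsg.Agent.S5016

/-!
A presentation of `SL₂(p)`: two one-parameter subgroups `x`, `y` with the braid relation
`x t y(-1/t) x t = y(-1/t) x t y(-1/t)` generate a central quotient of `SL₂(p)`.
-/

set_option autoImplicit false
set_option linter.style.haveILetI false

namespace CfsgLib.RootGroups

open Cfsg
open scoped MatrixGroups

variable {G : Type*} [Group G] {p : ℕ} [Fact p.Prime]

/-- Two one-parameter subgroups satisfying the braid relation. -/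
structure BraidData (x y : ZMod p → G) : Prop where
  x_add : ∀ s t, x (s + t) = x s * x t
  y_add : ∀ s t, y (s + t) = y s * y t
  braid : ∀ t, t ≠ 0 → x t * y (-t⁻¹) * x t = y (-t⁻¹) * x t * y (-t⁻¹)

/-- `w(t) = x(t) y(-1/t) x(t)`. -/
def bw (x y : ZMod p → G) (t : ZMod p) : G := x t * y (-t⁻¹) * x t

/-- `h(t) = w(t) w(1)⁻¹`. -/
def bh (x y : ZMod p → G) (t : ZMod p) : G := bw x y t * (bw x y 1)⁻¹

theorem pow_of_add {u : ZMod p → G} (hu : ∀ s t, u (s + t) = u s * u t) (t : ZMod p) (n : ℕ) :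
    u ((n : ZMod p) * t) = u t ^ n := by
  induction n with
  | zero =>
    have := hu 0 0
    rw [add_zero] at this
    simpa using (left_eq_mul.1 this)
  | succ k ih => rw [Nat.cast_succ, add_mul, one_mul, hu, ih, pow_succ]

theorem conj_of_add {u v : ZMod p → G} (hu : ∀ s t, u (s + t) = u s * u t)
    (hv : ∀ s t, v (s + t) = v s * v t) {g : G} {t c : ZMod p} (ht : t ≠ 0)
    (h : g * u t * g⁻¹ = v c) (s : ZMod p) : g * u s * g⁻¹ = v (s * t⁻¹ * c) := by
  obtain ⟨n, hn⟩ : ∃ n : ℕ, (n : ZMod p) = s * t⁻¹ := ⟨_, ZMod.natCast_zmod_val _⟩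
  have hs : s = (n : ZMod p) * t := by rw [hn]; field_simp
  calc g * u s * g⁻¹ = g * u t ^ n * g⁻¹ := by rw [hs, pow_of_add hu]
    _ = (g * u t * g⁻¹) ^ n := by simpa using (map_pow (MulAut.conj g) (u t) n)
    _ = v (s * t⁻¹ * c) := by rw [h, ← pow_of_add hv, hn]

variable {x y : ZMod p → G} (hd : BraidData x y)
include hd

theorem x_zero : x 0 = 1 := by simpa using pow_of_add hd.x_add 1 0
theorem y_zero : y 0 = 1 := by simpa using pow_of_add hd.y_add 1 0

theorem x_inv (t : ZMod p) : (x t)⁻¹ = x (-t) :=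
  inv_eq_of_mul_eq_one_right (by rw [← hd.x_add, add_neg_cancel, x_zero hd])

theorem y_inv (t : ZMod p) : (y t)⁻¹ = y (-t) :=
  inv_eq_of_mul_eq_one_right (by rw [← hd.y_add, add_neg_cancel, y_zero hd])

theorem bw_conj_x {t : ZMod p} (ht : t ≠ 0) (s : ZMod p) :
    bw x y t * x s * (bw x y t)⁻¹ = y (-(s * t⁻¹ * t⁻¹)) := by
  have h : bw x y t * x t * (bw x y t)⁻¹ = y (-t⁻¹) := by
    calc bw x y t * x t * (bw x y t)⁻¹
        = (x t * y (-t⁻¹) * x t) * (y (-t⁻¹))⁻¹ * (x t)⁻¹ := by rw [bw]; group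
      _ = y (-t⁻¹) := by rw [hd.braid t ht]; group
  rw [conj_of_add hd.x_add hd.y_add ht h s]
  congr 1; ring

theorem bw_conj_y {t : ZMod p} (ht : t ≠ 0) (s : ZMod p) :
    bw x y t * y s * (bw x y t)⁻¹ = x (-(s * t * t)) := by
  have h : bw x y t * y (-t⁻¹) * (bw x y t)⁻¹ = x t := by
    calc bw x y t * y (-t⁻¹) * (bw x y t)⁻¹
        = (y (-t⁻¹) * x t * y (-t⁻¹)) * (x t)⁻¹ * (y (-t⁻¹))⁻¹ := by
          rw [bw, hd.braid t ht]; group
      _ = x t := by rw [← hd.braid t ht]; group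
  rw [conj_of_add hd.y_add hd.x_add (neg_ne_zero.2 (inv_ne_zero ht)) h s]
  congr 1
  field_simp

theorem bw_conj_bw {t u : ZMod p} (ht : t ≠ 0) (hu : u ≠ 0) :
    bw x y t * bw x y u * (bw x y t)⁻¹ = bw x y (t * t * u⁻¹) := by
  have hne : t * t * u⁻¹ ≠ 0 := mul_ne_zero (mul_ne_zero ht ht) (inv_ne_zero hu)
  have : bw x y t * bw x y u * (bw x y t)⁻¹ = (bw x y t * x u * (bw x y t)⁻¹) *
      (bw x y t * y (-u⁻¹) * (bw x y t)⁻¹) * (bw x y t * x u * (bw x y t)⁻¹) := by
    conv_lhs => arg 1; arg 2; rw [bw]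
    group
  rw [this, bw_conj_x hd ht, bw_conj_y hd ht]
  rw [show bw x y (t * t * u⁻¹) = _ from hd.braid _ hne]
  have e1 : -(-u⁻¹ * t * t) = t * t * u⁻¹ := by ring
  have e2 : -(u * t⁻¹ * t⁻¹) = -(t * t * u⁻¹)⁻¹ := by field_simp
  rw [e1, e2]

theorem bw_neg {t : ZMod p} : bw x y (-t) = (bw x y t)⁻¹ := by
  rw [bw, bw, mul_inv_rev, mul_inv_rev, x_inv hd, y_inv hd, ← mul_assoc, inv_neg]

theorem bh_one : bh x y 1 = 1 := mul_inv_cancel _

theorem bw_eq {t : ZMod p} : bw x y t = bh x y t * bw x y 1 := by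
  rw [bh, inv_mul_cancel_right]

theorem bw_one_inv_conj_x (s : ZMod p) : (bw x y 1)⁻¹ * x s * bw x y 1 = y (-s) := by
  have h := bw_conj_y hd (one_ne_zero : (1 : ZMod p) ≠ 0) (-s)
  rw [show -(-s * 1 * 1) = s by ring] at h
  rw [← h]; group

theorem bw_one_inv_conj_y (s : ZMod p) : (bw x y 1)⁻¹ * y s * bw x y 1 = x (-s) := by
  have h := bw_conj_x hd (one_ne_zero : (1 : ZMod p) ≠ 0) (-s)
  rw [show -(-s * 1⁻¹ * 1⁻¹) = s by simp] at h
  rw [← h]; group

theorem bh_conj_x {t : ZMod p} (ht : t ≠ 0) (s : ZMod p) :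
    bh x y t * x s * (bh x y t)⁻¹ = x (s * t * t) := by
  calc bh x y t * x s * (bh x y t)⁻¹
      = bw x y t * ((bw x y 1)⁻¹ * x s * bw x y 1) * (bw x y t)⁻¹ := by rw [bh]; group
    _ = x (s * t * t) := by
      rw [bw_one_inv_conj_x hd, bw_conj_y hd ht]
      congr 1; ring

theorem bh_conj_y {t : ZMod p} (ht : t ≠ 0) (s : ZMod p) :
    bh x y t * y s * (bh x y t)⁻¹ = y (s * t⁻¹ * t⁻¹) := by
  calc bh x y t * y s * (bh x y t)⁻¹
      = bw x y t * ((bw x y 1)⁻¹ * y s * bw x y 1) * (bw x y t)⁻¹ := by rw [bh]; group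
    _ = y (s * t⁻¹ * t⁻¹) := by
      rw [bw_one_inv_conj_y hd, bw_conj_x hd ht]
      congr 1; ring

theorem bw_one_conj_bh {t : ZMod p} (ht : t ≠ 0) :
    bw x y 1 * bh x y t * (bw x y 1)⁻¹ = bh x y t⁻¹ := by
  have h := bw_conj_bw hd (one_ne_zero : (1 : ZMod p) ≠ 0) ht
  rw [one_mul, one_mul] at h
  rw [bh, bh, ← h]; group

theorem bh_commute {t s : ZMod p} (ht : t ≠ 0) (hs : s ≠ 0) :
    Commute (bh x y t) (bh x y s) := by
  obtain ⟨g, hg⟩ := IsCyclic.exists_generator (α := (ZMod p)ˣ)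
  have hg0 : (g : ZMod p) ≠ 0 := g.ne_zero
  have hpow : ∀ i : ℕ, ∀ u : ZMod p,
      bh x y g ^ i * x u * (bh x y g ^ i)⁻¹ = x (u * (g : ZMod p) ^ i * (g : ZMod p) ^ i) ∧
        bh x y g ^ i * y u * (bh x y g ^ i)⁻¹ =
          y (u * ((g : ZMod p) ^ i)⁻¹ * ((g : ZMod p) ^ i)⁻¹) := by
    intro i
    induction i with
    | zero => intro u; simp
    | succ k ih =>
      intro u
      constructor
      · calc bh x y g ^ (k + 1) * x u * (bh x y g ^ (k + 1))⁻¹
            = bh x y g * (bh x y g ^ k * x u * (bh x y g ^ k)⁻¹) * (bh x y g)⁻¹ := by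
              rw [pow_succ']; group
          _ = _ := by rw [(ih u).1, bh_conj_x hd hg0]; congr 1; ring
      · calc bh x y g ^ (k + 1) * y u * (bh x y g ^ (k + 1))⁻¹
            = bh x y g * (bh x y g ^ k * y u * (bh x y g ^ k)⁻¹) * (bh x y g)⁻¹ := by
              rw [pow_succ']; group
          _ = _ := by rw [(ih u).2, bh_conj_y hd hg0, pow_succ, mul_inv]; congr 1; ring
  -- every `h(t)` is a central element times a power of `h(g)`
  have hdecomp : ∀ t : ZMod p, t ≠ 0 → ∃ (i : ℕ) (z : G), bh x y t = z * bh x y g ^ i ∧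
      (∀ u, Commute z (x u)) ∧ (∀ u, Commute z (y u)) := by
    intro t ht
    obtain ⟨i, hi⟩ := (isOfFinOrder_of_finite g).mem_powers_iff_mem_zpowers.2
      (hg (Units.mk0 t ht))
    have hgt : (g : ZMod p) ^ i = t := by simpa using congrArg Units.val hi
    refine ⟨i, bh x y t * (bh x y g ^ i)⁻¹, by group, fun u => ?_, fun u => ?_⟩
    · refine mul_inv_eq_iff_eq_mul.1 ?_
      have e := (hpow i (u * t⁻¹ * t⁻¹)).1
      rw [hgt, show u * t⁻¹ * t⁻¹ * t * t = u by field_simp] at e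
      calc bh x y t * (bh x y g ^ i)⁻¹ * x u * (bh x y t * (bh x y g ^ i)⁻¹)⁻¹
          = bh x y t * ((bh x y g ^ i)⁻¹ * x u * bh x y g ^ i) * (bh x y t)⁻¹ := by group
        _ = bh x y t * x (u * t⁻¹ * t⁻¹) * (bh x y t)⁻¹ := by rw [← e]; group
        _ = x u := by rw [bh_conj_x hd ht]; congr 1; field_simp
    · refine mul_inv_eq_iff_eq_mul.1 ?_
      have e := (hpow i (u * t * t)).2
      rw [hgt, show u * t * t * t⁻¹ * t⁻¹ = u by field_simp] at e
      calc bh x y t * (bh x y g ^ i)⁻¹ * y u * (bh x y t * (bh x y g ^ i)⁻¹)⁻¹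
          = bh x y t * ((bh x y g ^ i)⁻¹ * y u * bh x y g ^ i) * (bh x y t)⁻¹ := by group
        _ = bh x y t * y (u * t * t) * (bh x y t)⁻¹ := by rw [← e]; group
        _ = y u := by rw [bh_conj_y hd ht]; congr 1; field_simp
  have hz : ∀ z : G, (∀ u, Commute z (x u)) → (∀ u, Commute z (y u)) →
      ∀ v, Commute z (bh x y v) := fun z hx hy v => by
    have hw : ∀ v, Commute z (bw x y v) := fun v => ((hx _).mul_right (hy _)).mul_right (hx _)
    exact (hw v).mul_right (hw 1).inv_right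
  obtain ⟨i, z, e1, hzx, hzy⟩ := hdecomp t ht
  obtain ⟨j, z', e2, hzx', hzy'⟩ := hdecomp s hs
  have hg' : Commute (bh x y g ^ i) (bh x y s) := by
    rw [e2]
    exact ((hz z' hzx' hzy' g).symm.pow_left i).mul_right ((Commute.refl _).pow_pow i j)
  rw [e1]
  exact (hz z hzx hzy s).mul_left hg'

theorem bh_sq_mul {t s : ZMod p} (ht : t ≠ 0) (hs : s ≠ 0) :
    bh x y (t * t * s) = bh x y (t * t) * bh x y s := by
  have key : ∀ u : ZMod p, u ≠ 0 →
      bh x y (t * t * u) = bh x y t * bh x y u * (bh x y t⁻¹)⁻¹ := by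
    intro u hu
    have h1 : bh x y t * bw x y u * (bh x y t)⁻¹ = bw x y (t * t * u) := by
      calc bh x y t * bw x y u * (bh x y t)⁻¹ = bw x y t *
            ((bw x y 1)⁻¹ * bw x y u * bw x y 1) * (bw x y t)⁻¹ := by rw [bh]; group
        _ = bw x y t * bw x y u⁻¹ * (bw x y t)⁻¹ := by
          have h := bw_conj_bw hd (one_ne_zero : (1 : ZMod p) ≠ 0) (inv_ne_zero hu)
          rw [one_mul, one_mul, inv_inv] at h
          rw [← h]; group
        _ = _ := by rw [bw_conj_bw hd ht (inv_ne_zero hu), inv_inv]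
    rw [bh, ← h1, ← bw_one_conj_bh hd ht, bh, bh]; group
  rw [key s hs]
  conv_rhs => rw [← mul_one (t * t), key 1 one_ne_zero, bh_one hd, mul_one, mul_assoc]
  rw [mul_assoc, (bh_commute hd (inv_ne_zero ht) hs).inv_left.eq]

theorem bw_mul_bw {t s : ZMod p} (ht : t ≠ 0) (hs : s ≠ 0) (hts : t + s = 1) :
    bw x y t * bw x y s = bw x y (t * t) * bw x y (t * s) := by
  set q := t * s with hq
  have hq0 : q ≠ 0 := mul_ne_zero ht hs
  have hy : ∀ u : ZMod p, u ≠ 0 → y (-u⁻¹) = x (-u) * bw x y u * x (-u) := fun u _ => by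
    rw [bw, ← x_inv hd]; group
  have e1 : y (-q⁻¹) = x (-t) * bw x y t * x (-1) * bw x y s * x (-s) := by
    have e : -q⁻¹ = -t⁻¹ + -s⁻¹ := by
      rw [hq]
      field_simp
      linear_combination hts
    calc y (-q⁻¹) = y (-t⁻¹) * y (-s⁻¹) := by rw [e, hd.y_add]
      _ = x (-t) * bw x y t * (x (-t) * x (-s)) * bw x y s * x (-s) := by
        rw [hy t ht, hy s hs]; group
      _ = _ := by rw [← hd.x_add, ← neg_add, hts]
  have e2 : bw x y t * x (-1) = y (t⁻¹ * t⁻¹) * bw x y t := by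
    rw [← mul_inv_eq_iff_eq_mul, bw_conj_x hd ht]; congr 1; ring
  have e3 : bw x y q * x (s * s) = y (-(t⁻¹ * t⁻¹)) * bw x y q := by
    rw [← mul_inv_eq_iff_eq_mul, bw_conj_x hd hq0, hq]
    congr 1; field_simp
  have e4 : bw x y t * bw x y s =
      (y (t⁻¹ * t⁻¹))⁻¹ * (x (t) * y (-q⁻¹) * x s) := by
    rw [e1, mul_assoc (x (-t)) (bw x y t) (x (-1)), e2, ← x_inv hd t, ← x_inv hd s]
    group
  have e5 : y (-q⁻¹) = x (-q) * bw x y q * x (-q) := hy q hq0
  have e6 : t + -q = t * t := by rw [hq]; linear_combination -t * hts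
  have e7 : -q + s = s * s := by rw [hq]; linear_combination -s * hts
  rw [e4, e5, y_inv hd]
  calc y (-(t⁻¹ * t⁻¹)) * (x t * (x (-q) * bw x y q * x (-q)) * x s)
      = y (-(t⁻¹ * t⁻¹)) * ((x t * x (-q)) * (bw x y q * (x (-q) * x s))) := by group
    _ = y (-(t⁻¹ * t⁻¹)) * (x (t * t) * (bw x y q * x (s * s))) := by
      rw [← hd.x_add, ← hd.x_add, e6, e7]
    _ = (y (-(t * t)⁻¹) * x (t * t) * y (-(t * t)⁻¹)) * bw x y q := by
      rw [e3, mul_inv]; group
    _ = _ := by rw [← hd.braid _ (mul_ne_zero ht ht)]; rfl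

theorem bh_mul {t s : ZMod p} (ht : t ≠ 0) (hs : s ≠ 0) :
    bh x y (t * s) = bh x y t * bh x y s := by
  -- a square factor splits off
  have hsq : ∀ t s : ZMod p, t ≠ 0 → s ≠ 0 → IsSquare t →
      bh x y (t * s) = bh x y t * bh x y s := by
    rintro _ s ht hs ⟨r, rfl⟩
    exact bh_sq_mul hd (left_ne_zero_of_mul ht) hs
  by_cases h1 : IsSquare t
  · exact hsq t s ht hs h1
  by_cases h2 : IsSquare s
  · rw [mul_comm, hsq s t hs ht h2, (bh_commute hd hs ht).eq]
  -- a non-square `1 = t₀ + s₀`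
  obtain ⟨a, b, hab⟩ := ZMod.sq_add_sq p t⁻¹
  have hti : ¬ IsSquare t⁻¹ := fun h => h1 (by simpa using h.inv)
  have ha : a ≠ 0 := fun e => hti ⟨b, by rw [← hab, e]; ring⟩
  have hb : b ≠ 0 := fun e => hti ⟨a, by rw [← hab, e]; ring⟩
  have ht₀ : t * (a * a) ≠ 0 := mul_ne_zero ht (mul_ne_zero ha ha)
  have hs₀ : t * (b * b) ≠ 0 := mul_ne_zero ht (mul_ne_zero hb hb)
  have hsum : t * (a * a) + t * (b * b) = 1 := by
    rw [← mul_add, ← sq, ← sq, hab, mul_inv_cancel₀ ht]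
  -- the symbol relation
  have key : ∀ t s : ZMod p, t ≠ 0 → s ≠ 0 → t + s = 1 →
      bh x y t * bh x y s⁻¹ = bh x y (t * s⁻¹) := by
    intro t s ht hs hts
    have h := bw_mul_bw hd ht hs hts
    rw [bw_eq hd (t := t), bw_eq hd (t := s), bw_eq hd (t := t * t), bw_eq hd (t := t * s)] at h
    have h' : bh x y t * bh x y s⁻¹ = bh x y (t * t) * bh x y (t * s)⁻¹ := by
      rw [← bw_one_conj_bh hd hs, ← bw_one_conj_bh hd (mul_ne_zero ht hs)]
      calc bh x y t * (bw x y 1 * bh x y s * (bw x y 1)⁻¹)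
          = bh x y t * bw x y 1 * (bh x y s * bw x y 1) * ((bw x y 1)⁻¹ * (bw x y 1)⁻¹) := by group
        _ = _ := by rw [h]; group
    rw [h', ← bh_sq_mul hd ht (inv_ne_zero (mul_ne_zero ht hs))]
    congr 1; field_simp
  have hk := key _ _ ht₀ hs₀ hsum
  -- `h(t) h(t) = h(t t)`
  have hr : (t * (b * b))⁻¹ = ((t * b)⁻¹ * (t * b)⁻¹) * t := by field_simp
  have hprod : bh x y t * bh x y t = bh x y (t * t) := by
    have hq : (t * b)⁻¹ * (t * b)⁻¹ ≠ 0 :=
      mul_ne_zero (inv_ne_zero (mul_ne_zero ht hb)) (inv_ne_zero (mul_ne_zero ht hb))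
    have e : t * (a * a) * (t * (b * b))⁻¹ =
        (a * a * ((t * b)⁻¹ * (t * b)⁻¹)) * (t * t) := by rw [hr]; ring
    rw [e, hr, mul_comm t (a * a), hsq _ t (mul_ne_zero ha ha) ht ⟨a, rfl⟩,
      hsq _ t hq ht ⟨_, rfl⟩,
      hsq _ (t * t) (mul_ne_zero (mul_ne_zero ha ha) hq) (mul_ne_zero ht ht)
        ⟨a * (t * b)⁻¹, by ring⟩,
      hsq _ _ (mul_ne_zero ha ha) hq ⟨a, rfl⟩] at hk
    rw [(bh_commute hd ht hq).mul_mul_mul_comm] at hk
    exact mul_left_cancel hk
  -- `s = t · square`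
  obtain ⟨r, hr2⟩ : IsSquare (s * t⁻¹) := by
    have hs' : quadraticChar (ZMod p) s = -1 :=
      (quadraticChar_neg_one_iff_not_isSquare (F := ZMod p)).2 h2
    have ht' : quadraticChar (ZMod p) t⁻¹ = -1 :=
      (quadraticChar_neg_one_iff_not_isSquare (F := ZMod p)).2 hti
    refine (quadraticChar_one_iff_isSquare (mul_ne_zero hs (inv_ne_zero ht))).1 ?_
    rw [map_mul, hs', ht']; norm_num
  have hsr : s = r * r * t := by rw [← hr2]; field_simp
  have hr0 : r * r ≠ 0 := left_ne_zero_of_mul (hsr ▸ hs)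
  rw [hsr, hsq _ t hr0 ht ⟨r, rfl⟩, show t * (r * r * t) = r * r * (t * t) by ring,
    hsq _ _ hr0 (mul_ne_zero ht ht) ⟨r, rfl⟩, ← hprod, ← mul_assoc, ← mul_assoc,
    (bh_commute hd ht hr0).eq]

/-- The map on `SL₂(p)` given by the Bruhat decomposition. -/
noncomputable def braidFun (x y : ZMod p → G) (M : SL(2, ZMod p)) : G :=
  if (M : Matrix (Fin 2) (Fin 2) (ZMod p)) 0 1 = 0 then
    bh x y ((M : Matrix (Fin 2) (Fin 2) (ZMod p)) 1 1) *
      x ((M : Matrix (Fin 2) (Fin 2) (ZMod p)) 1 0 * (M : Matrix (Fin 2) (Fin 2) (ZMod p)) 0 0)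
  else
    x ((M : Matrix (Fin 2) (Fin 2) (ZMod p)) 1 1 / (M : Matrix (Fin 2) (Fin 2) (ZMod p)) 0 1) *
      bw x y (-1 / (M : Matrix (Fin 2) (Fin 2) (ZMod p)) 0 1) *
      x ((M : Matrix (Fin 2) (Fin 2) (ZMod p)) 0 0 / (M : Matrix (Fin 2) (Fin 2) (ZMod p)) 0 1)

theorem braidFun_mul_lower (M N : SL(2, ZMod p)) (s : ZMod p)
    (hN : (N : Matrix (Fin 2) (Fin 2) (ZMod p)) = !![1, 0; s, 1]) :
    braidFun x y (M * N) = braidFun x y M * x s := by
  have hdet := M.det_coe
  rw [Matrix.det_fin_two] at hdet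
  simp only [braidFun, Matrix.SpecialLinearGroup.coe_mul, hN, Matrix.mul_apply, Fin.sum_univ_two]
  set a := (M : Matrix (Fin 2) (Fin 2) (ZMod p)) 0 0
  set b := (M : Matrix (Fin 2) (Fin 2) (ZMod p)) 0 1
  set c := (M : Matrix (Fin 2) (Fin 2) (ZMod p)) 1 0
  set d := (M : Matrix (Fin 2) (Fin 2) (ZMod p)) 1 1
  simp only [Matrix.of_apply, Matrix.cons_val', Matrix.cons_val_zero, Matrix.cons_val_one,
    Matrix.cons_val_fin_one, mul_one, mul_zero, zero_add, add_zero]
  by_cases hb : b = 0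
  · rw [if_pos hb, if_pos hb, mul_assoc, ← hd.x_add]
    congr 2
    rw [hb] at hdet ⊢
    linear_combination s * hdet
  · rw [if_neg hb, if_neg hb, mul_assoc (x (d / b) * bw x y (-1 / b)), ← hd.x_add]
    congr 2
    field_simp

theorem braidFun_mul_weyl (M N : SL(2, ZMod p))
    (hN : (N : Matrix (Fin 2) (Fin 2) (ZMod p)) = !![0, -1; 1, 0]) :
    braidFun x y (M * N) = braidFun x y M * bw x y 1 := by
  have hdet := M.det_coe
  rw [Matrix.det_fin_two] at hdet
  simp only [braidFun, Matrix.SpecialLinearGroup.coe_mul, hN, Matrix.mul_apply, Fin.sum_univ_two]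
  set a := (M : Matrix (Fin 2) (Fin 2) (ZMod p)) 0 0
  set b := (M : Matrix (Fin 2) (Fin 2) (ZMod p)) 0 1
  set c := (M : Matrix (Fin 2) (Fin 2) (ZMod p)) 1 0
  set d := (M : Matrix (Fin 2) (Fin 2) (ZMod p)) 1 1
  simp only [Matrix.of_apply, Matrix.cons_val', Matrix.cons_val_zero, Matrix.cons_val_one,
    Matrix.cons_val_fin_one, mul_one, mul_zero, zero_add, add_zero, mul_neg]
  have hn1 : (-1 : ZMod p) ≠ 0 := neg_ne_zero.2 one_ne_zero
  -- `w(1)² = h(-1)`
  have hww : bw x y 1 * bw x y 1 = bh x y (-1) := by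
    have h1 : bh x y (-1) = (bw x y 1)⁻¹ * (bw x y 1)⁻¹ := by rw [bh, bw_neg hd]
    have h2 := bh_mul hd hn1 hn1
    rw [neg_mul_neg, one_mul, bh_one hd] at h2
    rw [← inv_eq_of_mul_eq_one_right h2.symm, h1, mul_inv_rev, inv_inv]
  have hxh : ∀ t v : ZMod p, t ≠ 0 → bh x y t * x v = x (v * t * t) * bh x y t := fun t v ht => by
    rw [← mul_inv_eq_iff_eq_mul]; exact bh_conj_x hd ht v
  by_cases hb : b = 0
  · have had : a * d = 1 := by rw [hb] at hdet; linear_combination hdet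
    have ha : a ≠ 0 := left_ne_zero_of_mul_eq_one had
    have hd0 : d ≠ 0 := right_ne_zero_of_mul_eq_one had
    rw [if_neg (neg_ne_zero.2 ha), if_pos hb, hb]
    rw [show -c / -a = c / a by field_simp, show -1 / -a = d by field_simp; linear_combination -had,
      show (0 : ZMod p) / -a = 0 by simp, x_zero hd, mul_one, bw_eq hd (t := d), ← mul_assoc,
      hxh d _ hd0]
    congr 3
    field_simp
    linear_combination (-c * (a * d + 1)) * had
  · rw [if_neg hb]
    by_cases ha : a = 0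
    · have hbc : b * c = -1 := by rw [ha] at hdet; linear_combination -hdet
      have hc : c ≠ 0 := right_ne_zero_of_mul (hbc ▸ hn1)
      rw [if_pos (by rw [ha, neg_zero]), ha]
      have e0 : -1 / b = c := by field_simp; linear_combination -hbc
      rw [e0, zero_div, x_zero hd, mul_one, mul_assoc, bw_eq hd (t := c), mul_assoc, hww,
        ← bh_mul hd hc hn1, mul_neg, mul_one, hxh _ _ (neg_ne_zero.2 hc)]
      congr 2
      field_simp
      linear_combination (d * (b * c - 1)) * hbc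
    · rw [if_neg (neg_ne_zero.2 ha)]
      have hv : y (-(a / b)) = x (-(b / a)) * bw x y (b / a) * x (-(b / a)) := by
        rw [bw, show -(b / a)⁻¹ = -(a / b) by rw [inv_div], ← x_inv hd]; group
      have e1 : x (a / b) * bw x y 1 = bw x y 1 * y (-(a / b)) := by
        rw [← bw_one_inv_conj_x hd]; group
      have hb' : -1 / b ≠ 0 := div_ne_zero hn1 hb
      have h1b : (1 : ZMod p) / b ≠ 0 := one_div_ne_zero hb
      have e2 : bw x y (-1 / b) * bw x y 1 = bh x y (1 / b) := by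
        rw [bw_eq hd (t := -1 / b), mul_assoc, hww, ← bh_mul hd hb' hn1]
        congr 1; field_simp
      calc x (-c / -a) * bw x y (-1 / -a) * x (b / -a)
          = x (d / b + -(b / a) * (1 / b) * (1 / b)) * bw x y (1 / a) * x (-(b / a)) := by
            congr 1
            · congr 1
              · congr 1
                field_simp
                linear_combination -hdet
              · congr 1; field_simp
            · congr 1; field_simp
        _ = x (d / b) * x (-(b / a) * (1 / b) * (1 / b)) * (bh x y (1 / b) * bw x y (b / a)) *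
              x (-(b / a)) := by
            rw [bw_eq hd (t := 1 / a), hd.x_add, bw_eq hd (t := b / a),
              show (1 : ZMod p) / a = 1 / b * (b / a) by field_simp,
              bh_mul hd h1b (div_ne_zero hb ha)]
            simp only [mul_assoc]
        _ = x (d / b) * bh x y (1 / b) * (x (-(b / a)) * bw x y (b / a) * x (-(b / a))) := by
            rw [mul_assoc (x (d / b)), ← mul_assoc (x (-(b / a) * (1 / b) * (1 / b))),
              ← hxh _ _ h1b]
            simp only [mul_assoc]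
        _ = x (d / b) * (bw x y (-1 / b) * bw x y 1) * y (-(a / b)) := by rw [hv, e2]
        _ = x (d / b) * bw x y (-1 / b) * x (a / b) * bw x y 1 := by
            rw [mul_assoc _ (x (a / b)), e1]; simp only [mul_assoc]

theorem exists_braidHom : ∃ φ : SL(2, ZMod p) →* G,
    φ.range = Subgroup.closure {x 1, y 1} ∧ (lowerUnipotentSL2 (ZMod p)).map φ ≤
      Subgroup.zpowers (x 1) := by
  have hx : ∀ t, x t = x 1 ^ t.val := fun t => by
    rw [← pow_of_add hd.x_add, mul_one, ZMod.natCast_zmod_val]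
  have hy : ∀ t, y t = y 1 ^ t.val := fun t => by
    rw [← pow_of_add hd.y_add, mul_one, ZMod.natCast_zmod_val]
  obtain ⟨φ₀, hφ₀⟩ : ∃ f, f = braidFun x y := ⟨_, rfl⟩
  have hone : φ₀ 1 = 1 := by simp [hφ₀, braidFun, bh_one hd, x_zero hd]
  let W : SL(2, ZMod p) := ⟨!![0, -1; 1, 0], by simp [Matrix.det_fin_two]⟩
  have hW : φ₀ W = bw x y 1 := by
    have := braidFun_mul_weyl hd 1 W rfl
    rwa [one_mul, ← hφ₀, hone, one_mul] at this
  let P : Subgroup SL(2, ZMod p) :=
    { carrier := {N | ∀ M, φ₀ (M * N) = φ₀ M * φ₀ N}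
      one_mem' := fun M => by rw [mul_one, hone, mul_one]
      mul_mem' := by
        intro N N' hN hN' M
        rw [← mul_assoc, hN', hN, hN', mul_assoc]
      inv_mem' := by
        intro N hN M
        have h1 := hN (M * N⁻¹)
        rw [inv_mul_cancel_right] at h1
        have h2 := hN N⁻¹
        rw [inv_mul_cancel, hone] at h2
        rw [eq_inv_of_mul_eq_one_left h2.symm, h1, mul_inv_cancel_right] }
  have hWP : W ∈ P := fun M => by rw [hW, hφ₀, braidFun_mul_weyl hd M W rfl]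
  have hlow : ∀ N ∈ lowerUnipotentSL2 (ZMod p), N ∈ P ∧ ∃ s, φ₀ N = x s := by
    intro N hN
    induction hN using Subgroup.closure_induction with
    | mem N hN =>
      have hN' : (N : Matrix (Fin 2) (Fin 2) (ZMod p)) =
          !![1, 0; (N : Matrix (Fin 2) (Fin 2) (ZMod p)) 1 0, 1] := by
        ext i j; fin_cases i <;> fin_cases j <;> simp [hN.1, hN.2.1, hN.2.2]
      have hval := braidFun_mul_lower hd 1 N _ hN'
      rw [one_mul, ← hφ₀, hone, one_mul] at hval
      exact ⟨fun M => by rw [hval, hφ₀, braidFun_mul_lower hd M N _ hN'], _, hval⟩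
    | one => exact ⟨P.one_mem, 0, by rw [hone, x_zero hd]⟩
    | mul a b _ _ ha hb =>
      obtain ⟨haP, s, hs⟩ := ha
      obtain ⟨hbP, t, ht⟩ := hb
      exact ⟨P.mul_mem haP hbP, s + t, by rw [hbP a, hs, ht, hd.x_add]⟩
    | inv a _ ha =>
      obtain ⟨haP, s, hs⟩ := ha
      refine ⟨P.inv_mem haP, -s, ?_⟩
      have h2 := haP a⁻¹
      rw [inv_mul_cancel, hone] at h2
      rw [eq_inv_of_mul_eq_one_left h2.symm, hs, x_inv hd]
  -- the lower unitriangular group and `W` generate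
  have hup : upperUnipotentSL2 (ZMod p) ≤ P := by
    refine (Subgroup.closure_le _).2 fun N hN => ?_
    let L : SL(2, ZMod p) := ⟨!![1, 0; -((N : Matrix (Fin 2) (Fin 2) (ZMod p)) 0 1), 1],
      by simp [Matrix.det_fin_two]⟩
    have hL : L ∈ lowerUnipotentSL2 (ZMod p) := Subgroup.subset_closure ⟨by simp [L], by simp [L], by simp [L]⟩
    have e : N * W = W * L := by
      apply Subtype.ext
      show (N : Matrix (Fin 2) (Fin 2) (ZMod p)) * !![0, -1; 1, 0] =
        !![0, -1; 1, 0] * !![1, 0; -((N : Matrix (Fin 2) (Fin 2) (ZMod p)) 0 1), 1]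
      ext i j; fin_cases i <;> fin_cases j <;> simp [Matrix.mul_apply, hN.1, hN.2.1, hN.2.2]
    have : N = W * L * W⁻¹ := by rw [← e, mul_inv_cancel_right]
    rw [SetLike.mem_coe, this]
    exact P.mul_mem (P.mul_mem hWP (hlow L hL).1) (P.inv_mem hWP)
  have htop : ∀ N, N ∈ P := fun N =>
    (sup_le (fun N hN => (hlow N hN).1) hup : _ ≤ P)
      ((Cfsg.Agent.S5016.result (ZMod p)).1.1.symm ▸ Subgroup.mem_top N)
  let φ : SL(2, ZMod p) →* G := MonoidHom.mk' φ₀ fun M N => htop N M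
  refine ⟨φ, le_antisymm ?_ ?_, ?_⟩
  · rintro _ ⟨N, rfl⟩
    have hxm : ∀ t, x t ∈ Subgroup.closure {x 1, y 1} := fun t => by
      rw [hx t]; exact Subgroup.pow_mem _ (Subgroup.subset_closure (Set.mem_insert _ _)) _
    have hym : ∀ t, y t ∈ Subgroup.closure {x 1, y 1} := fun t => by
      rw [hy t]
      exact Subgroup.pow_mem _
        (Subgroup.subset_closure (Set.mem_insert_of_mem _ (Set.mem_singleton _))) _
    have hwm : ∀ t, bw x y t ∈ Subgroup.closure {x 1, y 1} := fun t =>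
      Subgroup.mul_mem _ (Subgroup.mul_mem _ (hxm _) (hym _)) (hxm _)
    show φ₀ N ∈ _
    rw [hφ₀, braidFun]
    split_ifs
    · exact Subgroup.mul_mem _ (Subgroup.mul_mem _ (hwm _) (Subgroup.inv_mem _ (hwm _))) (hxm _)
    · exact Subgroup.mul_mem _ (Subgroup.mul_mem _ (hxm _) (hwm _)) (hxm _)
  · rw [Subgroup.closure_le]
    let L : ZMod p → SL(2, ZMod p) := fun s => ⟨!![1, 0; s, 1], by simp [Matrix.det_fin_two]⟩
    have hLv : ∀ s, φ (L s) = x s := fun s => by
      show φ₀ (L s) = x s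
      have := braidFun_mul_lower hd 1 (L s) s rfl
      rwa [one_mul, ← hφ₀, hone, one_mul] at this
    rintro _ (rfl | rfl)
    · exact ⟨L 1, hLv 1⟩
    · refine ⟨W * L (-1) * W⁻¹, ?_⟩
      rw [map_mul, map_mul, map_inv, hLv, show φ W = bw x y 1 from hW,
        bw_conj_x hd one_ne_zero]
      congr 1; simp
  · rintro _ ⟨N, hN, rfl⟩
    obtain ⟨-, s, hs⟩ := hlow N hN
    show φ₀ N ∈ _
    rw [hs, hx s]
    exact Subgroup.pow_mem _ (Subgroup.mem_zpowers _) _

end CfsgLib.RootGroups
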