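import Cfsg.Agent.Lib.RootGroups.SL2Hom
import Cfsg.Agent.S5017

/-!
Timmesfeld, I (5.6): for a special rank one group with elementary abelian `p`-unipotents
`⟨a, b(a)⟩` is `SL₂(p)` or `PSL₂(p)`.
-/

set_option autoImplicit false
set_option linter.style.haveILetI false

namespace CfsgLib.RootGroups

open Cfsg
open scoped MatrixGroups

variable {G : Type*} [Group G] {A B : Subgroup G} {p : ℕ} [Fact p.Prime]

theorem closure_pair_sl2 (h : IsSpecialRankOnePair A B) (hab : HasAbelianUnipotents A B)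
    (hA : ∀ x ∈ A, x ^ p = 1) {a b : G} (hp : Paired A B a b) :
    Nonempty (↥(Subgroup.closure ({a, b} : Set G)) ≃* SL(2, ZMod p)) ∨
      Nonempty (↥(Subgroup.closure ({a, b} : Set G)) ≃*
        Matrix.ProjectiveSpecialLinearGroup (Fin 2) (ZMod p)) := by
  haveI : Fact (1 < p) := ⟨(Fact.out : p.Prime).one_lt⟩
  have hap : a ^ p = 1 := hA a hp.1
  have hbp : b ^ p = 1 := (pow_eq_one_iff h hp p).1 hap
  have hoa : orderOf a = p := orderOf_eq_prime hap hp.2.1
  have hadd : ∀ g : G, g ^ p = 1 → ∀ s t : ZMod p, g ^ (s + t).val = g ^ s.val * g ^ t.val := by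
    intro g hg s t
    rw [ZMod.val_add, ← pow_eq_pow_mod _ hg, pow_add]
  have hd : BraidData (fun t : ZMod p => a ^ t.val) (fun t : ZMod p => b ^ t.val) := by
    refine ⟨hadd a hap, hadd b hbp, fun t ht => ?_⟩
    have hn1 : a ^ t.val ≠ 1 :=
      pow_ne_one_of_lt_orderOf ((ZMod.val_ne_zero t).2 ht) (hoa.symm ▸ ZMod.val_lt t)
    obtain ⟨u, hu, hub⟩ := pow_paired h hab hp hn1
    have hup : u ^ p = 1 := (pow_eq_one_iff h hu p).1 (hA _ hu.1)
    have hu' : b ^ t⁻¹.val = u := by
      rw [← hub, ← pow_mul, pow_eq_pow_mod _ hup]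
      have : (t.val * t⁻¹.val) % p = 1 := by
        rw [← ZMod.val_mul, mul_inv_cancel₀ ht, ZMod.val_one]
      rw [this, pow_one]
    have hinv : b ^ (-t⁻¹).val = u⁻¹ := by
      refine eq_inv_of_mul_eq_one_left ?_
      rw [← hu', ← hadd b hbp, neg_add_cancel, ZMod.val_zero, pow_zero]
    show a ^ t.val * b ^ (-t⁻¹).val * a ^ t.val = b ^ (-t⁻¹).val * a ^ t.val * b ^ (-t⁻¹).val
    rw [hinv]
    exact weyl_eq h hu
  obtain ⟨φ, hrange, hlow⟩ := exists_braidHom hd
  simp only [ZMod.val_one, pow_one] at hrange hlow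
  -- the kernel is central
  have hSL := Cfsg.Agent.S5016.result (ZMod p)
  have hker : φ.ker ≤ Subgroup.center SL(2, ZMod p) := by
    refine ((Cfsg.Agent.S5017.result hSL.1).1 φ.ker φ.normal_ker).resolve_left fun htop => ?_
    have hle : φ.range ≤ Subgroup.zpowers a := by
      rw [MonoidHom.range_eq_map, ← htop, Subgroup.map_sup]
      refine sup_le ?_ hlow
      rw [Subgroup.map_le_iff_le_comap]
      intro g hg
      rw [Subgroup.mem_comap, MonoidHom.mem_ker.1 hg]
      exact Subgroup.one_mem _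
    rw [hrange] at hle
    obtain ⟨n, hn⟩ := hle (Subgroup.subset_closure (Set.mem_insert_of_mem _ (Set.mem_singleton b)))
    refine not_commute h.1 hp.1 hp.2.1 hp.2.2.1 hp.2.2.2.1 ?_
    rw [← hn]
    exact (Commute.refl a).zpow_right n
  by_cases hbot : φ.ker = ⊥
  · left
    have hinj : Function.Injective φ := (MonoidHom.ker_eq_bot_iff φ).1 hbot
    exact ⟨(MulEquiv.subgroupCongr hrange.symm).trans (MonoidHom.ofInjective hinj).symm⟩
  · right
    have heq : φ.ker = Subgroup.center SL(2, ZMod p) := by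
      refine le_antisymm hker fun z hz => ?_
      obtain ⟨g, hg, hg1⟩ := exists_ne_one_of_ne_bot hbot
      have hgm : g = -1 := ((CfsgLib.SL2.mem_center_iff g).1 (hker hg)).resolve_left hg1
      rcases (CfsgLib.SL2.mem_center_iff z).1 hz with rfl | rfl
      · exact Subgroup.one_mem _
      · exact hgm ▸ hg
    exact ⟨(MulEquiv.subgroupCongr hrange.symm).trans
      ((QuotientGroup.quotientKerEquivRange φ).symm.trans
        (QuotientGroup.quotientMulEquivOfEq heq))⟩

end CfsgLib.RootGroups
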