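import Cfsg.Agent.Lib.RootGroups.Simple

/-!
Rank one groups in which the stabilizer of an unipotent subgroup only adds the centre: the
elements squaring into the centre form a subgroup that is abelian modulo the centre.
-/

set_option autoImplicit false
set_option linter.style.haveILetI false

namespace CfsgLib.RootGroups

open Cfsg

variable {G : Type*} [Group G]

/-- The centre of `A ⊔ B`, as a predicate. -/
def IsCentralIn (A B : Subgroup G) (g : G) : Prop :=
  g ∈ A ⊔ B ∧ ∀ x ∈ A ⊔ B, Commute g x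

/-- Elements squaring into the centre. -/
def SquaresIn (A B : Subgroup G) (g : G) : Prop :=
  g ∈ A ⊔ B ∧ IsCentralIn A B (g * g)

variable {A B : Subgroup G}

namespace IsCentralIn

theorem one : IsCentralIn A B 1 := ⟨Subgroup.one_mem _, fun x _ => Commute.one_left x⟩

theorem mul {g h : G} (hg : IsCentralIn A B g) (hh : IsCentralIn A B h) :
    IsCentralIn A B (g * h) :=
  ⟨Subgroup.mul_mem _ hg.1 hh.1, fun x hx => (hg.2 x hx).mul_left (hh.2 x hx)⟩

theorem inv {g : G} (hg : IsCentralIn A B g) : IsCentralIn A B g⁻¹ :=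
  ⟨Subgroup.inv_mem _ hg.1, fun x hx => (hg.2 x hx).inv_left⟩

theorem conj_eq {g x : G} (hg : IsCentralIn A B g) (hx : x ∈ A ⊔ B) : x * g * x⁻¹ = g := by
  rw [← (hg.2 x hx).eq, mul_inv_cancel_right]

theorem fix {g : G} (hg : IsCentralIn A B g) {P : Subgroup G}
    (hP : P ∈ unipotentSubgroups A B) : conjBy P g = P :=
  conjBy_of_commute fun x hx => hg.2 x (le_sup_of_mem_unipotent hP hx)

end IsCentralIn

section Sharp

variable (hp : IsRankOnePair A B) [IsMulCommutative A]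
  (hstab : ∀ g ∈ A ⊔ B, conjBy A g = A → ∀ x ∈ A, Commute g x)
include hp

omit [IsMulCommutative A] in
theorem eq_one_of_central {a : G} (ha : a ∈ A) (hc : IsCentralIn A B a) : a = 1 :=
  eq_one_of_mem_normalizer hp ha (hc.fix (right_mem_unipotent hp))

omit [IsMulCommutative A] in
theorem eq_left_of_fixed {α : G} (hα : α ∈ A) (hα1 : α ≠ 1) {Q : Subgroup G}
    (hQ : Q ∈ unipotentSubgroups A B) (h : conjBy Q α = Q) : Q = A := by
  rcases (mem_unipotent_iff hp).1 hQ with rfl | ⟨x, hx, rfl⟩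
  · rfl
  · rw [conjBy_conjBy] at h
    exact absurd (mul_eq_right.1 (conjBy_right_inj hp (A.mul_mem hα hx) hx h)) hα1

include hstab

theorem exists_stab_decomp {g : G} (hg : g ∈ A ⊔ B) (hA : conjBy A g = A) :
    ∃ a ∈ A, ∃ z, IsCentralIn A B z ∧ g = a * z := by
  obtain ⟨a, ha, hz⟩ := exists_central_mul_of_commute hp hg (hstab g hg hA)
  exact ⟨a, ha, a⁻¹ * g, ⟨Subgroup.mul_mem _ (Subgroup.inv_mem _ (Subgroup.mem_sup_left ha)) hg,
    hz⟩, (mul_inv_cancel_left a g).symm⟩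

theorem central_of_fix_two_base {g : G} (hg : g ∈ A ⊔ B) (hA : conjBy A g = A)
    (hB : conjBy B g = B) : IsCentralIn A B g := by
  obtain ⟨a, ha, z, hz, rfl⟩ := exists_stab_decomp hp hstab hg hA
  rw [← conjBy_conjBy, hz.fix (right_mem_unipotent hp)] at hB
  rw [eq_one_of_mem_normalizer hp ha hB, one_mul]
  exact hz

theorem central_of_fix_two {g : G} (hg : g ∈ A ⊔ B) {P Q : Subgroup G}
    (hP : P ∈ unipotentSubgroups A B) (hQ : Q ∈ unipotentSubgroups A B) (hne : P ≠ Q)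
    (h1 : conjBy P g = P) (h2 : conjBy Q g = Q) : IsCentralIn A B g := by
  obtain ⟨x, hx, rfl, rfl⟩ := exists_conj_pair hp hP hQ hne
  have hxi := Subgroup.inv_mem (A ⊔ B) hx
  have key : ∀ C : Subgroup G, conjBy (conjBy C x) g = conjBy C x →
      conjBy C (x⁻¹ * g * x) = C := by
    intro C h
    rw [← conjBy_conjBy C (x⁻¹ * g) x, ← conjBy_conjBy (conjBy C x) x⁻¹ g, h, conjBy_inv_cancel]
  have hc := central_of_fix_two_base hp hstab
    (Subgroup.mul_mem _ (Subgroup.mul_mem _ hxi hg) hx) (key A h1) (key B h2)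
  have e : g = x * (x⁻¹ * g * x) * x⁻¹ := by group
  rw [e, hc.conj_eq hx]
  exact hc

theorem agree_on_two {g h : G} (hg : g ∈ A ⊔ B) (hh : h ∈ A ⊔ B) {P Q : Subgroup G}
    (hP : P ∈ unipotentSubgroups A B) (hQ : Q ∈ unipotentSubgroups A B) (hne : P ≠ Q)
    (h1 : conjBy P g = conjBy P h) (h2 : conjBy Q g = conjBy Q h) :
    IsCentralIn A B (h⁻¹ * g) := by
  refine central_of_fix_two hp hstab (Subgroup.mul_mem _ (Subgroup.inv_mem _ hh) hg) hP hQ hne
    ?_ ?_
  · rw [← conjBy_conjBy, h1, conjBy_inv_cancel]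
  · rw [← conjBy_conjBy, h2, conjBy_inv_cancel]

/-- Any two involutions in `A` coincide. -/
theorem involution_unique {a₀ a₁ : G} (h₀ : a₀ ∈ A) (h₀' : a₀ * a₀ = 1) (h₀1 : a₀ ≠ 1)
    (h₁ : a₁ ∈ A) (h₁' : a₁ * a₁ = 1) (h₁1 : a₁ ≠ 1) : a₀ = a₁ := by
  have hB := right_mem_unipotent hp
  have hC : ∀ {a : G}, a ∈ A → a ≠ 1 → B ≠ conjBy B a := fun {a} ha ha1 e =>
    ha1 (eq_one_of_mem_normalizer hp ha e.symm)
  have hp0 := isRankOnePair_of_mem hp hB (conjBy_right_mem hp h₀) (hC h₀ h₀1)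
  have hU := unipotentSubgroups_of_mem hp hB (conjBy_right_mem hp h₀) (hC h₀ h₀1)
  have hsup := sup_eq_of_mem hp hB (conjBy_right_mem hp h₀) (hC h₀ h₀1)
  obtain ⟨x, hx, hx1, hx2⟩ := exists_conj_pair hp0 (C := B) (D := conjBy B a₁) (hU ▸ hB)
    (hU ▸ conjBy_right_mem hp h₁) (hC h₁ h₁1)
  rw [hsup] at hx
  have h0X : a₀ ∈ A ⊔ B := Subgroup.mem_sup_left h₀
  have hgX : x * a₀ * x⁻¹ ∈ A ⊔ B :=
    Subgroup.mul_mem _ (Subgroup.mul_mem _ hx h0X) (Subgroup.inv_mem _ hx)
  have hxB : conjBy B x⁻¹ = B := by rw [conjBy_eq_iff, inv_inv, hx1]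
  have hc := agree_on_two hp hstab hgX (Subgroup.mem_sup_left h₁) hB (conjBy_right_mem hp h₁)
    (hC h₁ h₁1)
    (by rw [← conjBy_conjBy, hxB, ← hx2, conjBy_conjBy])
    (by
      rw [conjBy_conjBy B a₁ a₁, h₁', conjBy_one]
      conv_lhs => rw [← hx2]
      rw [conjBy_conjBy, inv_mul_cancel_right, ← conjBy_conjBy, conjBy_conjBy B a₀ a₀, h₀',
        conjBy_one, hx1])
  set z := a₁⁻¹ * (x * a₀ * x⁻¹) with hz
  have hxA : x * a₀ * x⁻¹ = a₁ * z := by rw [hz, mul_inv_cancel_left]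
  have hAx : conjBy A x = A := by
    refine eq_left_of_fixed hp h₁ h₁1 (conjBy_mem_unipotent (left_mem_unipotent A B) hx) ?_
    have h2 : conjBy (conjBy A x) (x * a₀ * x⁻¹) = conjBy A x := by
      rw [conjBy_conjBy, inv_mul_cancel_right, ← conjBy_conjBy, conjBy_of_mem h₀]
    rwa [hxA, ← conjBy_conjBy,
      hc.fix (conjBy_mem_unipotent (left_mem_unipotent A B) hx)] at h2
  have he : x * a₀ * x⁻¹ = a₀ := by
    rw [(hstab x hx hAx a₀ h₀).eq, mul_inv_cancel_right]
  rw [he] at hxA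
  have hz1 : z = 1 := by
    refine eq_one_of_central hp ?_ hc
    rw [hz, he]
    exact A.mul_mem (A.inv_mem h₁) h₀
  rw [hxA, hz1, mul_one]

section NoInvolution

variable (hinv : ∀ a ∈ A, a * a = 1 → a = 1)
include hinv

theorem central_of_square_fixed {g : G} (hg : SquaresIn A B g) {P : Subgroup G}
    (hP : P ∈ unipotentSubgroups A B) (h : conjBy P g = P) : IsCentralIn A B g := by
  obtain ⟨x, hx, rfl⟩ := hP
  have hxi := Subgroup.inv_mem (A ⊔ B) hx
  have hA : conjBy A (x⁻¹ * g * x) = A := by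
    rw [← conjBy_conjBy A (x⁻¹ * g) x, ← conjBy_conjBy (conjBy A x) x⁻¹ g, h, conjBy_inv_cancel]
  obtain ⟨a, ha, z, hz, he⟩ := exists_stab_decomp hp hstab
    (Subgroup.mul_mem _ (Subgroup.mul_mem _ hxi hg.1) hx) hA
  have h2 : IsCentralIn A B (a * a) := by
    have e1 : (a * z) * (a * z) = g * g := by
      rw [← he, show x⁻¹ * g * x * (x⁻¹ * g * x) = x⁻¹ * (g * g) * x⁻¹⁻¹ by group,
        hg.2.conj_eq hxi]
    have e2 : a * a = g * g * (z * z)⁻¹ := by
      rw [← e1, show a * z * (a * z) = a * (z * a) * z by group,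
        (hz.2 a (Subgroup.mem_sup_left ha)).eq]
      group
    rw [e2]
    exact hg.2.mul (hz.mul hz).inv
  rw [hinv a ha (eq_one_of_central hp (A.mul_mem ha ha) h2), one_mul] at he
  have e : g = x * (x⁻¹ * g * x) * x⁻¹ := by group
  rw [e, he, hz.conj_eq hx]
  exact hz

omit hinv in
theorem exists_swap : ∃ j, SquaresIn A B j ∧ conjBy A j = B ∧ conjBy B j = A := by
  obtain ⟨j, hj, h1, h2⟩ :=
    exists_conj_pair hp (right_mem_unipotent hp) (left_mem_unipotent A B) hp.ne.symm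
  exact ⟨j, ⟨hj, central_of_fix_two_base hp hstab (Subgroup.mul_mem _ hj hj)
    (by rw [← conjBy_conjBy, h1, h2]) (by rw [← conjBy_conjBy, h2, h1])⟩, h1, h2⟩

/-- For `α ∈ A#` and a swap `j` some member is moved by `j` as by `α`. -/
theorem exists_swap_eq {j : G} (hj : SquaresIn A B j) (hjA : conjBy A j = B)
    (hjB : conjBy B j = A) {α : G} (hα : α ∈ A) (hα1 : α ≠ 1) :
    ∃ P ∈ unipotentSubgroups A B, conjBy P j = conjBy P α := by
  have hB := right_mem_unipotent hp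
  have hAu := left_mem_unipotent A B
  obtain ⟨x, hx, hx1, hx2⟩ := exists_conj_pair hp hB (conjBy_right_mem hp hα)
    (fun e => hα1 (eq_one_of_mem_normalizer hp hα e.symm))
  set i := x * j * x⁻¹ with hidef
  have hiX : i ∈ A ⊔ B := Subgroup.mul_mem _ (Subgroup.mul_mem _ hx hj.1) (Subgroup.inv_mem _ hx)
  have hi : SquaresIn A B i := ⟨hiX, by
    rw [hidef, show x * j * x⁻¹ * (x * j * x⁻¹) = x * (j * j) * x⁻¹ by group, hj.2.conj_eq hx]
    exact hj.2⟩
  have hiB : conjBy B i = conjBy B α := by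
    rw [hidef]
    conv_lhs => rw [← hx1]
    rw [conjBy_conjBy, inv_mul_cancel_right, ← conjBy_conjBy, hjA, hx2]
  have hiA : conjBy A i ≠ A := fun e => by
    have hc := central_of_square_fixed hp hstab hinv hi hAu e
    rw [hc.fix hB] at hiB
    exact hα1 (eq_one_of_mem_normalizer hp hα hiB.symm)
  obtain ⟨δ, hδ, hiδ⟩ :=
    ((mem_unipotent_iff hp).1 (conjBy_mem_unipotent hAu hiX)).resolve_left hiA
  have hδX : δ ∈ A ⊔ B := Subgroup.mem_sup_left hδ
  have hfix : conjBy A δ⁻¹ = A := conjBy_of_mem (A.inv_mem hδ)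
  have hc := agree_on_two hp hstab (g := δ * j * δ⁻¹) (h := i)
    (Subgroup.mul_mem _ (Subgroup.mul_mem _ hδX hj.1) (Subgroup.inv_mem _ hδX)) hiX hAu
    (conjBy_right_mem hp hδ)
    (fun e => hp.ne (by have := (conjBy_eq_iff.1 e.symm).symm; rwa [hfix] at this))
    (by rw [← conjBy_conjBy, hfix, ← conjBy_conjBy, hjA, hiδ])
    (by
      rw [conjBy_conjBy, inv_mul_cancel_right, ← conjBy_conjBy, hjB, conjBy_of_mem hδ,
        ← hiδ, conjBy_conjBy, hi.2.fix hAu])
  refine ⟨conjBy B δ⁻¹, conjBy_right_mem hp (A.inv_mem hδ), ?_⟩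
  have h3 : conjBy B (δ * j * δ⁻¹) = conjBy B α := by
    rw [show δ * j * δ⁻¹ = i * (i⁻¹ * (δ * j * δ⁻¹)) by group, ← conjBy_conjBy, hc.fix hB,
      hiB]
  rw [conjBy_conjBy, conjBy_conjBy, show j * δ⁻¹ = δ⁻¹ * (δ * j * δ⁻¹) by group,
    ← conjBy_conjBy, h3, conjBy_conjBy,
    ((commute_of_isMulCommutative hα hδ).inv_right).eq]

/-- An element without fixed point squares into the centre. -/
theorem square_of_fixedPointFree {g : G} (hg : g ∈ A ⊔ B)
    (hfree : ∀ P ∈ unipotentSubgroups A B, conjBy P g ≠ P) : SquaresIn A B g := by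
  obtain ⟨j, hj, hjA, hjB⟩ := exists_swap hp hstab
  have hAu := left_mem_unipotent A B
  obtain ⟨γ, hγ, hgγ⟩ :=
    ((mem_unipotent_iff hp).1 (conjBy_mem_unipotent hAu hg)).resolve_left (hfree A hAu)
  have hγX : γ ∈ A ⊔ B := Subgroup.mem_sup_left hγ
  have hg'A : conjBy A (γ⁻¹ * g * γ) = B := by
    rw [← conjBy_conjBy, conjBy_of_mem hγ, ← conjBy_conjBy, hgγ, conjBy_inv_cancel]
  obtain ⟨β, hβ, z, hz, he⟩ := exists_stab_decomp hp hstab (g := j⁻¹ * (γ⁻¹ * g * γ))
    (Subgroup.mul_mem _ (Subgroup.inv_mem _ hj.1)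
      (Subgroup.mul_mem _ (Subgroup.mul_mem _ (Subgroup.inv_mem _ hγX) hg) hγX))
    (by rw [← conjBy_conjBy, hg'A, ← hjA, conjBy_inv_cancel])
  rw [inv_mul_eq_iff_eq_mul] at he
  have hβ1 : β = 1 := by
    by_contra hβ1
    obtain ⟨P, hP, hPj⟩ :=
      exists_swap_eq hp hstab hinv hj hjA hjB (A.inv_mem hβ) (inv_ne_one.2 hβ1)
    have hQ : conjBy P β⁻¹ ∈ unipotentSubgroups A B :=
      conjBy_mem_unipotent hP (Subgroup.inv_mem _ (Subgroup.mem_sup_left hβ))
    refine hfree (conjBy (conjBy P β⁻¹) γ) (conjBy_mem_unipotent hQ hγX) ?_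
    have h1 : conjBy (conjBy P β⁻¹) (γ⁻¹ * g * γ) = conjBy P β⁻¹ := by
      rw [he, ← conjBy_conjBy (conjBy P β⁻¹) j, ← conjBy_conjBy (conjBy P β⁻¹) β, hz.fix hQ,
        conjBy_cancel_inv, hPj]
    calc conjBy (conjBy (conjBy P β⁻¹) γ) g
        = conjBy (conjBy (conjBy P β⁻¹) (γ⁻¹ * g * γ)) γ := by
          rw [conjBy_conjBy _ g γ, conjBy_conjBy _ γ (γ⁻¹ * g * γ)]; group
      _ = _ := by rw [h1]
  rw [hβ1, one_mul] at he
  refine ⟨hg, ?_⟩
  have e : g * g = γ * ((j * z) * (j * z)) * γ⁻¹ := by rw [← he]; group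
  have e' : (j * z) * (j * z) = j * j * (z * z) := by
    rw [show j * z * (j * z) = j * (z * j) * z by group, (hz.2 j hj.1).eq]; group
  rw [e, e', (hj.2.mul (hz.mul hz)).conj_eq hγX]
  exact hj.2.mul (hz.mul hz)

theorem SquaresIn.mul {g h : G} (hg : SquaresIn A B g) (hh : SquaresIn A B h) :
    SquaresIn A B (g * h) := by
  have hghX := Subgroup.mul_mem _ hg.1 hh.1
  by_cases hfree : ∀ P ∈ unipotentSubgroups A B, conjBy P (g * h) ≠ P
  · exact square_of_fixedPointFree hp hstab hinv hghX hfree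
  push Not at hfree
  obtain ⟨P, hP, hPgh⟩ := hfree
  refine ⟨hghX, ?_⟩
  rw [← conjBy_conjBy] at hPgh
  have hQ := conjBy_mem_unipotent hP hh.1
  by_cases hPQ : conjBy P h = P
  · rw [hPQ] at hPgh
    exact ((central_of_square_fixed hp hstab hinv hg hP hPgh).mul
      (central_of_square_fixed hp hstab hinv hh hP hPQ)).mul
      ((central_of_square_fixed hp hstab hinv hg hP hPgh).mul
      (central_of_square_fixed hp hstab hinv hh hP hPQ))
  have hgP : conjBy P g = conjBy P h := by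
    conv_lhs => rw [← hPgh]
    rw [conjBy_conjBy, hg.2.fix hQ]
  have hc := agree_on_two hp hstab hh.1 hg.1 hP hQ (Ne.symm hPQ) hgP.symm
    (by rw [hPgh, conjBy_conjBy, hh.2.fix hP])
  have e : g * h = (g * g) * (g⁻¹ * h) := by group
  rw [e]
  exact (hg.2.mul hc).mul (hg.2.mul hc)

omit [IsMulCommutative A] hp hstab hinv in
theorem SquaresIn.inv {g : G} (hg : SquaresIn A B g) : SquaresIn A B g⁻¹ :=
  ⟨Subgroup.inv_mem _ hg.1, by rw [← mul_inv_rev]; exact hg.2.inv⟩

omit [IsMulCommutative A] hp hstab hinv in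
theorem SquaresIn.conj {g x : G} (hg : SquaresIn A B g) (hx : x ∈ A ⊔ B) :
    SquaresIn A B (x * g * x⁻¹) :=
  ⟨Subgroup.mul_mem _ (Subgroup.mul_mem _ hx hg.1) (Subgroup.inv_mem _ hx), by
    rw [show x * g * x⁻¹ * (x * g * x⁻¹) = x * (g * g) * x⁻¹ by group, hg.2.conj_eq hx]
    exact hg.2⟩

theorem squaresIn_commutator {u v : G} (hu : SquaresIn A B u) (hv : SquaresIn A B v) :
    IsCentralIn A B (u * v * u⁻¹ * v⁻¹) := by
  have hz := (SquaresIn.mul hp hstab hinv hu hv).2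
  have e : u * v * u⁻¹ * v⁻¹ = (u * v * (u * v)) * (v⁻¹ * (u * u)⁻¹ * v⁻¹⁻¹) * (v * v)⁻¹ := by
    group
  rw [e, hu.2.inv.conj_eq (Subgroup.inv_mem _ hv.1)]
  exact (hz.mul hu.2.inv).mul hv.2.inv

/-- Some element squaring into the centre commutes exactly with its conjugate under `c³`. -/
theorem commute_conj_cube {c t : G} (hc : c ∈ A) (hc1 : c ≠ 1) (ht : SquaresIn A B t)
    (htA : conjBy A t ≠ A) : Commute t (c ^ 3 * t * (c ^ 3)⁻¹) := by
  have hcX : c ∈ A ⊔ B := Subgroup.mem_sup_left hc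
  have hAu := left_mem_unipotent A B
  let K : G → G → G := fun u v => u * v * u⁻¹ * v⁻¹
  have hK : ∀ {u v}, SquaresIn A B u → SquaresIn A B v → IsCentralIn A B (K u v) :=
    fun hu hv => squaresIn_commutator hp hstab hinv hu hv
  have hK' : ∀ {u v}, SquaresIn A B u → SquaresIn A B v →
      IsCentralIn A B (u * v * u⁻¹ * v⁻¹) := fun hu hv => hK hu hv
  have hmulL : ∀ {u v w}, SquaresIn A B u → SquaresIn A B v → SquaresIn A B w →
      K (u * v) w = K v w * K u w := by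
    intro u v w hu hv hw
    simp only [K]
    rw [show u * v * w * (u * v)⁻¹ * w⁻¹
      = u * (v * w * v⁻¹ * w⁻¹) * (w * u⁻¹ * w⁻¹) by group, ← ((hK' hv hw).2 u hu.1).eq]
    group
  have hmulR : ∀ {u v w}, SquaresIn A B u → SquaresIn A B v → SquaresIn A B w →
      K u (v * w) = K u v * K u w := by
    intro u v w hu hv hw
    simp only [K]
    rw [show u * (v * w) * u⁻¹ * (v * w)⁻¹
      = (u * v * u⁻¹) * (u * w * u⁻¹ * w⁻¹) * v⁻¹ by group,
      show u * v * u⁻¹ * v⁻¹ * (u * w * u⁻¹ * w⁻¹)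
      = (u * v * u⁻¹) * (v⁻¹ * (u * w * u⁻¹ * w⁻¹)) by group,
      ← ((hK' hu hw).2 v⁻¹ (Subgroup.inv_mem _ hv.1)).eq]
    group
  have hcent : ∀ {u v z}, IsCentralIn A B z → SquaresIn A B u → SquaresIn A B v →
      K (z * u) v = K u v ∧ K u (z * v) = K u v := by
    intro u v z hz hu hv
    simp only [K]
    constructor
    · rw [show z * u * v * (z * u)⁻¹ * v⁻¹ = z * (u * v * u⁻¹) * z⁻¹ * v⁻¹ by group,
        (hz.2 _ (Subgroup.mul_mem _ (Subgroup.mul_mem _ hu.1 hv.1)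
          (Subgroup.inv_mem _ hu.1))).eq]
      group
    · rw [show u * (z * v) * u⁻¹ * (z * v)⁻¹ = (u * z * u⁻¹) * (u * v * u⁻¹ * v⁻¹) * z⁻¹ by group,
        hz.conj_eq hu.1, (hz.2 _ (hK' hu hv).1).eq]
      group
  set t₁ := c * t * c⁻¹ with ht₁def
  set t₂ := c * t₁ * c⁻¹ with ht₂def
  set t₃ := c * t₂ * c⁻¹ with ht₃def
  have ht₁ : SquaresIn A B t₁ := ht.conj hcX
  have ht₂ : SquaresIn A B t₂ := ht₁.conj hcX
  have ht₃ : SquaresIn A B t₃ := ht₂.conj hcX
  -- `γ ∈ A` sends `t` to `t t₁` modulo the centre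
  have hs := SquaresIn.mul hp hstab hinv ht ht₁
  have hsA : conjBy A (t * t₁) ≠ A := by
    intro e
    refine htA ?_
    have h1 : conjBy A t₁ = conjBy A t := by
      rw [← conjBy_conjBy] at e
      conv_rhs => rw [← e]
      rw [conjBy_conjBy _ t t, ht.2.fix (conjBy_mem_unipotent hAu ht₁.1)]
    refine eq_left_of_fixed hp hc hc1 (conjBy_mem_unipotent hAu ht.1) ?_
    conv_rhs => rw [← h1, ht₁def, ← conjBy_conjBy, conjBy_of_mem (A.inv_mem hc)]
    rw [conjBy_conjBy]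
  obtain ⟨δ, hδ, hδe⟩ :=
    ((mem_unipotent_iff hp).1 (conjBy_mem_unipotent hAu ht.1)).resolve_left htA
  obtain ⟨ε, hε, hεe⟩ :=
    ((mem_unipotent_iff hp).1 (conjBy_mem_unipotent hAu hs.1)).resolve_left hsA
  set γ := ε * δ⁻¹ with hγdef
  have hγ : γ ∈ A := A.mul_mem hε (A.inv_mem hδ)
  have hγX : γ ∈ A ⊔ B := Subgroup.mem_sup_left hγ
  have hcongr : IsCentralIn A B (γ * t * γ⁻¹ * (t * t₁)⁻¹) := by
    refine central_of_square_fixed hp hstab hinv
      (SquaresIn.mul hp hstab hinv (ht.conj hγX) hs.inv) (conjBy_mem_unipotent hAu hs.1) ?_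
    rw [conjBy_conjBy, inv_mul_cancel_right, ← conjBy_conjBy, conjBy_of_mem (A.inv_mem hγ),
      ← conjBy_conjBy, hδe, conjBy_conjBy, hγdef, inv_mul_cancel_right, hεe]
  have hcγ : c * γ = γ * c := (commute_of_isMulCommutative hc hγ).eq
  have shift : ∀ {u v : G}, IsCentralIn A B (γ * u * γ⁻¹ * (u * v)⁻¹) →
      IsCentralIn A B (γ * (c * u * c⁻¹) * γ⁻¹ * (c * u * c⁻¹ * (c * v * c⁻¹))⁻¹) := by
    intro u v h
    have e : γ * (c * u * c⁻¹) * γ⁻¹ * (c * u * c⁻¹ * (c * v * c⁻¹))⁻¹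
        = c * (γ * u * γ⁻¹ * (u * v)⁻¹) * c⁻¹ := by
      rw [show γ * (c * u * c⁻¹) * γ⁻¹ = (γ * c) * u * (γ * c)⁻¹ by group, ← hcγ]
      group
    rw [e, h.conj_eq hcX]
    exact h
  have hcongr₁ := shift hcongr
  rw [← ht₁def, ← ht₂def] at hcongr₁
  have hcongr₂ := shift hcongr₁
  rw [← ht₂def, ← ht₃def] at hcongr₂
  have invar : ∀ {u u' v v' : G}, SquaresIn A B u → SquaresIn A B v → SquaresIn A B u' →
      SquaresIn A B v' → IsCentralIn A B (γ * u * γ⁻¹ * u'⁻¹) →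
      IsCentralIn A B (γ * v * γ⁻¹ * v'⁻¹) → K u v = K u' v' := by
    intro u u' v v' hu hv hu' hv' h1 h2
    have e : γ * K u v * γ⁻¹ = K (γ * u * γ⁻¹) (γ * v * γ⁻¹) := by simp only [K]; group
    rw [(hK hu hv).conj_eq hγX] at e
    rw [e, ← inv_mul_cancel_right (γ * u * γ⁻¹) u', ← inv_mul_cancel_right (γ * v * γ⁻¹) v',
      (hcent h1 hu' (by rw [inv_mul_cancel_right]; exact hv.conj hγX)).1, (hcent h2 hu' hv').2]
  have Kself : ∀ u, K u u = 1 := fun u => by simp only [K]; group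
  have Kshift : ∀ {u v}, SquaresIn A B u → SquaresIn A B v →
      K (c * u * c⁻¹) (c * v * c⁻¹) = K u v := by
    intro u v hu hv
    rw [show K (c * u * c⁻¹) (c * v * c⁻¹) = c * K u v * c⁻¹ by simp only [K]; group,
      (hK hu hv).conj_eq hcX]
  have h12 := SquaresIn.mul hp hstab hinv ht₁ ht₂
  have h23 := SquaresIn.mul hp hstab hinv ht₂ ht₃
  have s11 : K t₁ t₂ = K t t₁ := Kshift ht ht₁
  have s12 : K t₁ t₃ = K t t₂ := Kshift ht ht₂
  have e1 := invar ht ht₁ hs h12 hcongr hcongr₁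
  rw [hmulL ht ht₁ h12, hmulR ht₁ ht₁ ht₂, hmulR ht ht₁ ht₂, Kself, one_mul, s11] at e1
  have e1' : K t t₁ * K t t₂ = 1 :=
    mul_left_cancel (a := K t t₁) (by rw [mul_one]; exact e1.symm)
  have e2 := invar ht ht₂ hs h23 hcongr hcongr₂
  rw [hmulL ht ht₁ h23, hmulR ht₁ ht₂ ht₃, hmulR ht ht₂ ht₃, s11, s12, e1', one_mul] at e2
  have e3 : K t t₃ = 1 := mul_left_cancel (a := K t t₂) (by rw [mul_one]; exact e2.symm)
  have e4 : t₃ = c ^ 3 * t * (c ^ 3)⁻¹ := by
    simp only [ht₁def, ht₂def, ht₃def, pow_three']; group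
  rw [← e4]
  exact mul_inv_eq_iff_eq_mul.1 (mul_inv_eq_one.1 e3)

theorem exists_square_quotient : ∃ (N Zc : Subgroup G), (∀ g, g ∈ N ↔ SquaresIn A B g) ∧
    (∀ g, g ∈ Zc ↔ IsCentralIn A B g) :=
  ⟨{ carrier := {g | SquaresIn A B g}
     one_mem' := ⟨Subgroup.one_mem _, by rw [one_mul]; exact IsCentralIn.one⟩
     mul_mem' := fun hg hh => SquaresIn.mul hp hstab hinv hg hh
     inv_mem' := fun hg => hg.inv },
   { carrier := {g | IsCentralIn A B g}
     one_mem' := IsCentralIn.one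
     mul_mem' := fun hg hh => hg.mul hh
     inv_mem' := fun hg => hg.inv }, fun _ => Iff.rfl, fun _ => Iff.rfl⟩

/-- `A` does not have exponent three unless it has three elements. -/
theorem not_exponent_three (hbig : 3 < ENat.card A) (h3 : ∀ a ∈ A, a ^ 3 = 1) : False := by
  obtain ⟨t, ht, htA, htB⟩ := exists_swap hp hstab
  have hAu := left_mem_unipotent A B
  -- `t t^α t^(α²)` is central for all `α ∈ A#`
  have key : ∀ α ∈ A, α ≠ 1 →
      IsCentralIn A B (t * (α * t * α⁻¹) * (α * α * t * (α * α)⁻¹)) := by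
    intro α hα hα1
    have hαX : α ∈ A ⊔ B := Subgroup.mem_sup_left hα
    have hu := ht.conj hαX
    have hw : SquaresIn A B (α * α * t * (α * α)⁻¹) := ht.conj (Subgroup.mul_mem _ hαX hαX)
    have hp3 : α * α * α = 1 := by rw [← pow_three']; exact h3 α hα
    set s := t * (α * t * α⁻¹) * (α * α * t * (α * α)⁻¹) with hsdef
    have hs : SquaresIn A B s :=
      SquaresIn.mul hp hstab hinv (SquaresIn.mul hp hstab hinv ht hu) hw
    refine central_of_square_fixed hp hstab hinv hs hAu ?_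
    -- `α s α⁻¹ s⁻¹` is a commutator of elements squaring into the centre
    have hαs : α * s * α⁻¹ = t⁻¹ * s * t := by
      rw [hsdef, show α * (t * (α * t * α⁻¹) * (α * α * t * (α * α)⁻¹)) * α⁻¹
        = (α * t * α⁻¹) * (α * α * t * (α * α)⁻¹) * ((α * α * α) * t * (α * α * α)⁻¹) by group,
        hp3]
      group
    refine eq_left_of_fixed hp hα hα1 (conjBy_mem_unipotent hAu hs.1) ?_
    have h1 : conjBy A (α * s * α⁻¹) = conjBy (conjBy A s) α := by
      rw [← conjBy_conjBy A (α * s) α⁻¹, conjBy_of_mem (A.inv_mem hα), conjBy_conjBy]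
    rw [← h1, hαs, show t⁻¹ * s * t = (t⁻¹ * s * t⁻¹⁻¹ * s⁻¹) * s by group, ← conjBy_conjBy,
      (squaresIn_commutator hp hstab hinv ht.inv hs).fix (conjBy_mem_unipotent hAu hs.1)]
  obtain ⟨a, ha, ha1, z, hz, hz1, hza, hza'⟩ := exists_big hbig
  obtain ⟨N, Zc, hN, hZ⟩ := exists_square_quotient hp hstab hinv
  haveI hnor : (Zc.subgroupOf N).Normal := by
    constructor
    intro n hn g
    rw [Subgroup.mem_subgroupOf] at hn ⊢
    rw [hZ] at hn ⊢
    simp only [Subgroup.coe_mul, InvMemClass.coe_inv]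
    rw [hn.conj_eq ((hN _).1 g.2).1]
    exact hn
  letI : CommGroup (N ⧸ Zc.subgroupOf N) :=
    { (inferInstance : Group (N ⧸ Zc.subgroupOf N)) with
      mul_comm := fun u v => by
        induction u using QuotientGroup.induction_on with
        | H u =>
          induction v using QuotientGroup.induction_on with
          | H v =>
            rw [← QuotientGroup.mk_mul, ← QuotientGroup.mk_mul, QuotientGroup.eq,
              Subgroup.mem_subgroupOf, hZ]
            have := squaresIn_commutator hp hstab hinv ((hN _).1 v.2).inv ((hN _).1 u.2).inv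
            simpa [mul_assoc] using this }
  have hX : ∀ {β}, β ∈ A → β ∈ A ⊔ B := fun h => Subgroup.mem_sup_left h
  let T : A → N := fun β => ⟨β * t * (β : G)⁻¹, (hN _).2 (ht.conj (hX β.2))⟩
  let q : A → N ⧸ Zc.subgroupOf N := fun β => QuotientGroup.mk (T β)
  have rel : ∀ β α : A, α ≠ 1 → q β * q (β * α) * q (β * (α * α)) = 1 := by
    intro β α hα
    simp only [q, ← QuotientGroup.mk_mul, QuotientGroup.eq_one_iff, Subgroup.mem_subgroupOf, hZ,
      Subgroup.coe_mul, T]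
    have h := key α α.2 (fun e => hα (Subtype.ext e))
    rw [← h.conj_eq (hX β.2)] at h
    simpa [mul_assoc] using h
  have hq2 : q 1 * q 1 = 1 := by
    simp only [q, ← QuotientGroup.mk_mul, QuotientGroup.eq_one_iff, Subgroup.mem_subgroupOf, hZ,
      Subgroup.coe_mul, T, Subgroup.coe_one]
    simpa using ht.2
  let a' : A := ⟨a, ha⟩
  let z' : A := ⟨z, hz⟩
  have hne : ∀ {x : A}, (x : G) ≠ 1 → x ≠ 1 := fun h e => h (by rw [e]; rfl)
  have hzzz : z' * z' * z' = 1 := Subtype.ext (by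
    show z * z * z = 1
    rw [← pow_three']; exact h3 z hz)
  have hzi : z * z = z⁻¹ := by
    refine eq_inv_of_mul_eq_one_left ?_
    rw [← pow_three']; exact h3 z hz
  have n1 : a' * z' ≠ 1 := hne fun e => hza' (eq_inv_of_mul_eq_one_right e)
  have n2 : a' * (z' * z') ≠ 1 := hne (by
    show a * (z * z) ≠ 1
    rw [hzi]
    exact fun e => hza (mul_inv_eq_one.1 e).symm)
  have k2 := rel 1 z' (hne hz1)
  have k3 := rel 1 (a' * z') n1
  have k4 := rel 1 (a' * (z' * z')) n2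
  have c1 := rel z' a' (hne ha1)
  have c2 := rel (z' * z') a' (hne ha1)
  simp only [one_mul] at k2 k3 k4
  have i1 : z' * a' = a' * z' := mul_comm' _ _
  have i2 : z' * z' * a' = a' * (z' * z') := mul_comm' _ _
  have i3 : a' * (z' * z') * (a' * (z' * z')) = z' * (a' * a') := by
    rw [Commute.mul_mul_mul_comm (mul_comm' _ _),
      show z' * z' * (z' * z') = (z' * z' * z') * z' by group, hzzz, one_mul, mul_comm']
  have i4 : a' * z' * (a' * z') = z' * z' * (a' * a') := by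
    rw [Commute.mul_mul_mul_comm (mul_comm' _ _), mul_comm']
  rw [i3] at k4
  rw [i4] at k3
  rw [i1] at c1
  rw [i2] at c2
  have h := three_calc (q 1) _ _ _ _ _ _ k2 k3 k4 c1 c2 hq2
  simp only [q, QuotientGroup.eq_one_iff, Subgroup.mem_subgroupOf, hZ, T, Subgroup.coe_one,
    one_mul, inv_one, mul_one] at h
  exact hp.ne.symm (htA.symm.trans (h.fix hAu))
where
  mul_comm' (x y : A) : x * y = y * x := Subtype.ext (commute_of_isMulCommutative x.2 y.2).eq
  three_calc {M : Type _} [CommGroup M] (t z zz az aazz azz aaz : M) (k2 : t * z * zz = 1)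
      (k3 : t * az * aazz = 1) (k4 : t * azz * aaz = 1) (c1 : z * az * aaz = 1)
      (c2 : zz * azz * aazz = 1) (h : t * t = 1) : t = 1 := by
    have e : t * t * t = 1 := by
      calc t * t * t = (t * z * zz) * (t * az * aazz) * (t * azz * aaz) *
            ((z * az * aaz) * (zz * azz * aazz))⁻¹ := by
            apply Additive.ofMul.injective
            simp only [ofMul_mul, ofMul_inv]
            abel
        _ = 1 := by rw [k2, k3, k4, c1, c2]; group
    rwa [h, one_mul] at e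

end NoInvolution

end Sharp

end CfsgLib.RootGroups
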