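import Cfsg.Agent.Lib.RootGroups.Special

/-!
Normal subgroups of groups generated by abstract root subgroups (Timmesfeld, II (2.14)).
-/

set_option autoImplicit false
set_option linter.style.haveILetI false

namespace CfsgLib.RootGroups

open Cfsg
open scoped commutatorElement

variable {G : Type*} [Group G] {S : Set (Subgroup G)}

theorem exists_big {A : Subgroup G} (h : 3 < ENat.card A) :
    ∃ a ∈ A, a ≠ 1 ∧ ∃ z ∈ A, z ≠ 1 ∧ z ≠ a ∧ z ≠ a⁻¹ := by
  by_contra hh
  push Not at hh
  have hsub : ∀ s : Set G, s.encard ≤ 3 → (A : Set G) ⊆ s → False := by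
    intro s hs hle
    have h1 : ENat.card A = (A : Set G).encard := rfl
    rw [h1] at h
    exact absurd ((Set.encard_le_encard hle).trans hs) (not_le.2 h)
  by_cases hA : ∃ a ∈ A, a ≠ 1
  · obtain ⟨a, ha, ha1⟩ := hA
    refine hsub {1, a, a⁻¹} ?_ fun z hz => ?_
    · refine (Set.encard_insert_le _ _).trans ((add_le_add (Set.encard_insert_le _ _) le_rfl).trans ?_)
      rw [Set.encard_singleton]; rfl
    · simp only [Set.mem_insert_iff, Set.mem_singleton_iff]
      by_cases h1 : z = 1
      · exact Or.inl h1
      · by_cases h2 : z = a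
        · exact Or.inr (Or.inl h2)
        · exact Or.inr (Or.inr (hh a ha ha1 z hz h1 h2))
  · push Not at hA
    refine hsub {1} ?_ fun z hz => hA z hz
    rw [Set.encard_singleton]; decide

/-- Conditions under which a normal subgroup of a group generated by root subgroups is
everything as soon as it contains a nonidentity root element. -/
theorem normal_eq_top_of_member (hS : IsRootSubgroupSet S) (hc : IsConjClassOfSubgroups S)
    {A : Subgroup G} (hA : A ∈ S) {N : Subgroup G} (hN : N.Normal) (hle : A ≤ N) : N = ⊤ := by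
  refine top_le_iff.1 (hS.generates ▸ iSup₂_le fun B hB => ?_)
  obtain ⟨g, rfl⟩ := hc.2 A hA B hB
  intro x hx
  rw [mem_conjBy] at hx
  simpa [mul_assoc] using hN.conj_mem _ (hle hx) g

theorem centre_of_commute (hS : IsRootSubgroupSet S) {n : G}
    (h : ∀ A ∈ S, ∀ a ∈ A, Commute n a) : n ∈ Subgroup.center G := by
  have htop : (⊤ : Subgroup G) ≤ Subgroup.centralizer ({n} : Set G) :=
    hS.generates ▸ iSup₂_le fun A hA a ha =>
      Subgroup.mem_centralizer_singleton_iff.2 (h A hA a ha).symm.eq
  exact Subgroup.mem_center_iff.2 fun g =>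
    Subgroup.mem_centralizer_singleton_iff.1 (htop (Subgroup.mem_top g))

theorem commutator_le_of_commute_mod {N U V : Subgroup G} (hN : N.Normal) {n : G} (hn : n ∈ N)
    (h : ∀ u ∈ conjBy U n, ∀ v ∈ V, Commute u v) : ∀ u ∈ U, ∀ v ∈ V, u * v * u⁻¹ * v⁻¹ ∈ N := by
  intro u hu v hv
  have hc := h _ (conj_mem_conjBy (g := n) hu) v hv
  have hk : (u * n * u⁻¹) * n⁻¹ ∈ N := N.mul_mem (hN.conj_mem n hn u) (N.inv_mem hn)
  -- modulo `N` the element `u` equals its conjugate by `n`
  have hk' : v * (u * n * u⁻¹ * n⁻¹)⁻¹ * v⁻¹ ∈ N := hN.conj_mem _ (N.inv_mem hk) v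
  have e : u * v * u⁻¹ * v⁻¹ =
      (u * n * u⁻¹ * n⁻¹) * (v * (u * n * u⁻¹ * n⁻¹)⁻¹ * v⁻¹) := by
    have e1 : u = (u * n * u⁻¹ * n⁻¹) * (n * u * n⁻¹) := by group
    calc u * v * u⁻¹ * v⁻¹ = (u * n * u⁻¹ * n⁻¹) * ((n * u * n⁻¹) * v * (n * u * n⁻¹)⁻¹) *
          (u * n * u⁻¹ * n⁻¹)⁻¹ * v⁻¹ := by group
      _ = _ := by rw [hc.eq, mul_inv_cancel_right]; group
  rw [e]; exact N.mul_mem hk hk'

/-- The quasisimplicity criterion: every proper normal subgroup is central. -/
theorem normal_dichotomy_rootSet (hS : IsRootSubgroupSet S) (hc : IsConjClassOfSubgroups S)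
    {A₀ B₀ : Subgroup G} (hA₀ : A₀ ∈ S) (hB₀ : B₀ ∈ S) (hp₀ : IsRankOnePair A₀ B₀)
    (hsep : ∀ A ∈ S, ∀ C ∈ S, A ≠ C → centralizingMembers S A ≠ centralizingMembers S C)
    {N : Subgroup G} (hN : N.Normal)
    (hmem : ∀ A ∈ S, ∀ x ∈ A, x ≠ 1 → x ∈ N → N = ⊤)
    (hpair : ∀ A ∈ S, ∀ B ∈ S, IsRankOnePair A B →
      (∀ x ∈ A ⊔ B, ∀ y ∈ A ⊔ B, x * y * x⁻¹ * y⁻¹ ∈ N) → N = ⊤) :
    N = ⊤ ∨ N ≤ Subgroup.center G := by
  by_cases hmove : ∃ A ∈ S, ∃ n ∈ N, conjBy A n ≠ A
  · left
    obtain ⟨A, hA, n, hn, hne⟩ := hmove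
    have hB := hS.conj_mem A hA n
    haveI := hS.commutative A hA
    -- a pair whose commutators all lie in `N`
    have hcase : ∀ E ∈ S, ∀ F ∈ S, ⁅E, F⁆ ≠ ⊥ →
        (∀ e ∈ E, ∀ f ∈ F, e * f * e⁻¹ * f⁻¹ ∈ N) → N = ⊤ := by
      intro E hE F hF hEF hEFN
      rcases hS.pair E hE F hF with h | h | h
      · exact absurd h hEF
      · refine hpair E hE F hF h fun x hx y hy => ?_
        haveI := hN
        haveI := hS.commutative E hE
        haveI := hS.commutative F hF
        have key : ∀ g ∈ E ⊔ F, ∀ g' ∈ E ⊔ F,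
            Commute (QuotientGroup.mk' N g) (QuotientGroup.mk' N g') := by
          intro g hg g' hg'
          have hgen : ∀ u ∈ (E : Set G) ∪ F, ∀ v ∈ (E : Set G) ∪ F,
              Commute (QuotientGroup.mk' N u) (QuotientGroup.mk' N v) := by
            have hEF' : ∀ e ∈ E, ∀ f ∈ F,
                Commute (QuotientGroup.mk' N e) (QuotientGroup.mk' N f) := fun e he f hf => by
              rw [← commutatorElement_eq_one_iff_commute, ← map_commutatorElement,
                QuotientGroup.mk'_apply, QuotientGroup.eq_one_iff, commutatorElement_def]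
              exact hEFN e he f hf
            rintro u (hu | hu) v (hv | hv)
            · exact (commute_of_isMulCommutative (A := E) hu hv).map _
            · exact hEF' u hu v hv
            · exact (hEF' v hv u hu).symm
            · exact (commute_of_isMulCommutative (A := F) hu hv).map _
          rw [Subgroup.sup_eq_closure] at hg hg'
          induction hg using Subgroup.closure_induction with
          | mem u hu =>
            induction hg' using Subgroup.closure_induction with
            | mem v hv => exact hgen u hu v hv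
            | one => rw [map_one]; exact Commute.one_right _
            | mul a b _ _ ha hb => rw [map_mul]; exact ha.mul_right hb
            | inv a _ ha => rw [map_inv]; exact ha.inv_right
          | one => rw [map_one]; exact Commute.one_left _
          | mul a b _ _ ha hb => rw [map_mul]; exact ha.mul_left hb
          | inv a _ ha => rw [map_inv]; exact ha.inv_left
        have := (key x hx y hy).commutator_eq
        rwa [← map_commutatorElement, QuotientGroup.mk'_apply, QuotientGroup.eq_one_iff,
          commutatorElement_def] at this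
      · refine normal_eq_top_of_member hS hc h.1 hN ?_
        rw [Subgroup.commutator_le]
        intro e he f hf
        rw [commutatorElement_def]
        exact hEFN e he f hf
    by_cases hcm : ∀ a ∈ A, ∀ a' ∈ conjBy A n, Commute a' a
    · -- some member separates `A` from its conjugate
      obtain ⟨E, hE⟩ : ∃ E, ¬ (E ∈ centralizingMembers S A ↔
          E ∈ centralizingMembers S (conjBy A n)) := by
        by_contra hh
        push Not at hh
        exact hsep A hA _ hB (Ne.symm hne) (Set.ext hh)
      simp only [mem_centralizingMembers_iff, commutator_eq_bot_iff_forall_commute] at hE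
      by_cases hES : E ∈ S
      · by_cases h1 : ∀ e ∈ E, ∀ a ∈ A, Commute e a
        · have hne' : ⁅E, conjBy A n⁆ ≠ ⊥ := fun e0 => hE (iff_of_true ⟨hES, h1⟩
            ⟨hES, commutator_eq_bot_iff_forall_commute.1 e0⟩)
          refine hcase (conjBy A n) hB E hES (by rwa [Subgroup.commutator_comm]) ?_
          refine commutator_le_of_commute_mod hN (N.inv_mem hn) ?_
          rw [conjBy_inv_cancel]
          exact fun a ha e he => (h1 e he a ha).symm
        · have hne' : ⁅A, E⁆ ≠ ⊥ := fun e0 => h1 fun e he a ha =>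
            (commutator_eq_bot_iff_forall_commute.1 e0 a ha e he).symm
          refine hcase A hA E hES hne' (commutator_le_of_commute_mod hN hn fun u hu e he => ?_)
          by_contra hne''
          exact hE (iff_of_false (fun h => h1 h.2) fun h => hne'' (h.2 e he u hu).symm)
      · exact absurd (iff_of_false (fun h => hES h.1) fun h => hES h.1) hE
    · refine hcase A hA (conjBy A n) hB
        (fun e => hcm fun a ha a' ha' =>
          (commutator_eq_bot_iff_forall_commute.1 e a ha a' ha').symm) ?_
      intro a ha f hf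
      have h1 := commutator_le_of_commute_mod hN (N.inv_mem hn) (U := conjBy A n) (V := A) (by
        rw [conjBy_inv_cancel]
        exact fun u hu v hv => commute_of_isMulCommutative hu hv) f hf a ha
      have := N.inv_mem h1
      convert this using 1; group
  · push Not at hmove
    by_cases hfix : ∀ A ∈ S, ∀ a ∈ A, ∀ n ∈ N, Commute n a
    · exact Or.inr fun n hn => centre_of_commute hS fun A hA a ha => hfix A hA a ha n hn
    · push Not at hfix
      obtain ⟨A, hA, a, ha, n, hn, hne⟩ := hfix
      refine Or.inl (hmem A hA (n * a * n⁻¹ * a⁻¹) ?_ ?_ ?_)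
      · exact A.mul_mem (hmove A hA n hn ▸ conj_mem_conjBy ha) (A.inv_mem ha)
      · exact fun e => hne (mul_inv_eq_iff_eq_mul.1 (mul_inv_eq_one.1 e))
      · rw [show n * a * n⁻¹ * a⁻¹ = n * (a * n⁻¹ * a⁻¹) by group]
        exact N.mul_mem hn (hN.conj_mem _ (N.inv_mem hn) a)

end CfsgLib.RootGroups
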