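import Cfsg.Agent.Lib.RootGroups.Classes

/-!
Special rank one groups with abelian unipotent subgroups (Timmesfeld, I §5).

`f : a ↦ b(a)` satisfies `f(aⁿ)ⁿ = f(a)`, and `A = ⁅A, H⁆` as soon as `#A > 3`.
-/

set_option autoImplicit false
set_option linter.style.haveILetI false

namespace CfsgLib.RootGroups

open Cfsg
open scoped commutatorElement IsMulCommutative

variable {G : Type*} [Group G] {A B : Subgroup G}

/-- The Weyl element `μ = a b⁻¹ a` of a paired `(a, b)`. -/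
theorem weyl_eq (h : IsSpecialRankOnePair A B) {a b : G} (hp : Paired A B a b) :
    a * b⁻¹ * a = b⁻¹ * a * b⁻¹ := by
  have hs := h.2 a hp.1 hp.2.1 b hp.2.2.1 hp.2.2.2.1 hp.2.2.2.2
  calc a * b⁻¹ * a = a * (b⁻¹ * a * b) * b⁻¹ := by group
    _ = a * (a⁻¹ * b⁻¹ * a) * b⁻¹ := by rw [hs]
    _ = _ := by group

theorem weyl_conj_left (h : IsSpecialRankOnePair A B) {a b : G} (hp : Paired A B a b) :
    (a * b⁻¹ * a)⁻¹ * a * (a * b⁻¹ * a) = b⁻¹ := by
  calc (a * b⁻¹ * a)⁻¹ * a * (a * b⁻¹ * a) = a⁻¹ * b * (a * b⁻¹ * a) := by group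
    _ = a⁻¹ * b * (b⁻¹ * a * b⁻¹) := by rw [weyl_eq h hp]
    _ = b⁻¹ := by group

theorem weyl_mem {a b : G} (hp : Paired A B a b) : a * b⁻¹ * a ∈ A ⊔ B :=
  Subgroup.mul_mem _ (Subgroup.mul_mem _ (Subgroup.mem_sup_left hp.1)
    (Subgroup.inv_mem _ (Subgroup.mem_sup_right hp.2.2.1))) (Subgroup.mem_sup_left hp.1)

theorem weyl_swap (h : IsSpecialRankOnePair A B) {a b : G} (hp : Paired A B a b) :
    conjBy A (a * b⁻¹ * a) = B ∧ conjBy B (a * b⁻¹ * a) = A ∧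
      conjBy A (a * b⁻¹ * a)⁻¹ = B ∧ conjBy B (a * b⁻¹ * a)⁻¹ = A := by
  have h1 : ∀ {a b}, Paired A B a b → conjBy A (a * b⁻¹ * a) = B := fun {a b} hp => by
    rw [← conjBy_conjBy, conjBy_of_mem hp.1, hp.conj_left]
  have hi : (a * b⁻¹ * a)⁻¹ = a⁻¹ * b⁻¹⁻¹ * a⁻¹ := by group
  have h2 : conjBy A (a * b⁻¹ * a)⁻¹ = B := hi ▸ h1 (paired_inv h hp)
  refine ⟨h1 hp, ?_, h2, ?_⟩
  · rw [← h2, conjBy_cancel_inv]
  · rw [← h1 hp, conjBy_inv_cancel]

theorem inv_conj_pow (g a : G) (n : ℕ) : (g⁻¹ * a * g) ^ n = g⁻¹ * a ^ n * g := by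
  induction n with
  | zero => simp
  | succ k ih => rw [pow_succ, ih, pow_succ]; group

theorem pow_eq_one_iff (h : IsSpecialRankOnePair A B) {a b : G} (hp : Paired A B a b) (n : ℕ) :
    a ^ n = 1 ↔ b ^ n = 1 := by
  rw [← inv_eq_one (a := b ^ n), ← inv_pow, ← weyl_conj_left h hp, inv_conj_pow]
  constructor
  · intro e; rw [e]; group
  · intro e
    rwa [mul_assoc, inv_mul_eq_one, eq_comm, mul_eq_right] at e

/-- A computation in an abelian group. -/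
theorem comm_calc {M : Type*} [CommGroup M] (U W V P Q R : M) :
    (U * (Q * P)) * (W * (P * R)) * ((U * W) * P)⁻¹ * (V * R)⁻¹ * (V⁻¹ * Q⁻¹)⁻¹ = P * Q ^ 2 := by
  apply Additive.ofMul.injective
  simp only [ofMul_mul, ofMul_inv, ofMul_pow]
  abel

/-- The basic equation `f(a + g(..)) + f(x + a) = f(a)`. -/
theorem special_equation (h : IsSpecialRankOnePair A B) [IsMulCommutative A] [IsMulCommutative B]
    {a b x u r v : G} (hp : Paired A B a b) (hu : Paired A B (x * a) u) (hr : Paired A B r v)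
    (hv : (a * b⁻¹ * a)⁻¹ * x * (a * b⁻¹ * a) = v⁻¹) :
    ∃ w, Paired A B (a * r) w ∧ u * w = b := by
  have hL : conjBy B (x * (a * b⁻¹ * a))⁻¹ = conjBy B r := by
    have e : (x * (a * b⁻¹ * a))⁻¹ = v * (a * b⁻¹ * a)⁻¹ := by
      rw [← inv_inv v, ← hv]; group
    rw [e, ← conjBy_conjBy, (weyl_swap h hp).2.2.2]
    simpa using (paired_inv h hr).2.2.2.2
  have hR : conjBy B (x * (a * b⁻¹ * a))⁻¹ = conjBy (conjBy A (b * u⁻¹)) a⁻¹ := by
    have e : (x * (a * b⁻¹ * a))⁻¹ = a⁻¹ * (b * (x * a)⁻¹) := by group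
    rw [e, ← conjBy_conjBy, ← conjBy_conjBy, ← hu.2.2.2.2, conjBy_conjBy A]
  have he : conjBy A (b * u⁻¹) = conjBy B (a * r) := by
    rw [← conjBy_conjBy B, ← hL, hR, conjBy_cancel_inv]
  have hbu : b * u⁻¹ ∈ B := B.mul_mem hp.2.2.1 (B.inv_mem hu.2.2.1)
  have har : a * r ∈ A := A.mul_mem hp.1 hr.1
  have har1 : a * r ≠ 1 := by
    intro e
    rw [e, conjBy_one, conjBy_eq_iff, conjBy_of_mem (B.inv_mem hbu)] at he
    exact h.1.ne he
  obtain ⟨w, hw⟩ := exists_paired h.1 har har1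
  refine ⟨w, hw, ?_⟩
  have hw' := (paired_inv h hw).2.2.2.2
  rw [inv_inv, inv_inv] at hw'
  have := conjBy_right_inj (RankOnePair_symm h.1) hbu hw.2.2.1 (he.trans hw'.symm)
  rw [← this, ← mul_assoc, (commute_of_isMulCommutative hu.2.2.1 hp.2.2.1).eq,
    mul_inv_cancel_right]

theorem pow_paired_aux (n : ℕ) : ∀ {A B : Subgroup G}, IsSpecialRankOnePair A B →
    IsMulCommutative A → IsMulCommutative B → ∀ {a b : G}, Paired A B a b → a ^ n ≠ 1 →
      ∃ u, Paired A B (a ^ n) u ∧ u ^ n = b := by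
  induction n with
  | zero => intro A B _ _ _ a b _ h; exact absurd (pow_zero a) h
  | succ k ih =>
    intro A B h cA cB a b hp hne
    obtain ⟨u, hu⟩ := exists_paired h.1 (A.pow_mem hp.1 _) hne
    refine ⟨u, hu, ?_⟩
    by_cases hk : a ^ k = 1
    · have hu' : Paired A B a u := by
        rw [pow_succ, hk, one_mul] at hu; exact hu
      rw [pow_succ, Paired.unique_right h.1 hu' hp, (pow_eq_one_iff h hp k).1 hk, one_mul]
    · have hbk : b ^ k ≠ 1 := fun e => hk ((pow_eq_one_iff h hp k).2 e)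
      obtain ⟨r, hr, hrk⟩ := ih (isSpecial_symm h) cB cA hp.symm hbk
      have hv : (a * b⁻¹ * a)⁻¹ * a ^ k * (a * b⁻¹ * a) = (b ^ k)⁻¹ := by
        rw [← inv_conj_pow, weyl_conj_left h hp, inv_pow]
      obtain ⟨w, hw, huw⟩ := special_equation h hp (by rwa [← pow_succ]) hr.symm hv
      have har : (a * r) ^ k = a ^ (k + 1) := by
        rw [(commute_of_isMulCommutative hp.1 hr.2.2.1).mul_pow, hrk, pow_succ]
      obtain ⟨u', hu', hu'k⟩ := ih h cA cB hw (by rw [har]; exact hne)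
      rw [har] at hu'
      rw [Paired.unique_right h.1 hu' hu] at hu'k
      rw [pow_succ', hu'k, huw]

/-- `b(aⁿ)ⁿ = b(a)`. -/
theorem pow_paired (h : IsSpecialRankOnePair A B) (hab : HasAbelianUnipotents A B) {a b : G}
    (hp : Paired A B a b) {n : ℕ} (hn : a ^ n ≠ 1) : ∃ u, Paired A B (a ^ n) u ∧ u ^ n = b :=
  pow_paired_aux n h hab.1 hab.2 hp hn

theorem exists_pow_eq (h : IsSpecialRankOnePair A B) (hab : HasAbelianUnipotents A B) {a : G}
    (ha : a ∈ A) {n : ℕ} (hn : a ^ n ≠ 1) : ∃ c ∈ A, c ^ n = a := by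
  obtain ⟨b, hp⟩ := exists_paired h.1 ha (fun e => hn (by rw [e, one_pow]))
  obtain ⟨r, hr, hrn⟩ := pow_paired (isSpecial_symm h) ⟨hab.2, hab.1⟩ hp.symm
    (fun e => hn ((pow_eq_one_iff h hp n).2 e))
  exact ⟨r, hr.2.2.1, hrn⟩

theorem prime_orderOf (h : IsSpecialRankOnePair A B) (hab : HasAbelianUnipotents A B) {a : G}
    (ha : a ∈ A) (ha1 : a ≠ 1) (hfin : IsOfFinOrder a) : (orderOf a).Prime := by
  have hpos := orderOf_pos_iff.2 hfin
  have hm1 : orderOf a ≠ 1 := fun e => ha1 (orderOf_eq_one_iff.1 e)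
  by_contra hnp
  obtain ⟨d, hd, hd2, hdlt⟩ := Nat.exists_dvd_of_not_prime2 (by omega) hnp
  obtain ⟨e, he⟩ := hd
  have he1 : 1 < e := by
    by_contra hle
    interval_cases e <;> omega
  have helt : e < orderOf a := by
    rw [he]; exact lt_mul_of_one_lt_left (by omega) (by omega)
  obtain ⟨b, hp⟩ := exists_paired h.1 ha ha1
  obtain ⟨u, hu, hub⟩ := pow_paired h hab hp (pow_ne_one_of_lt_orderOf (by omega) helt)
  have hud : u ^ d = 1 :=
    (pow_eq_one_iff h hu d).1 (by rw [← pow_mul, mul_comm, ← he, pow_orderOf_eq_one])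
  have hbd : b ^ d = 1 := by rw [← hub, ← pow_mul, mul_comm, pow_mul, hud, one_pow]
  exact pow_ne_one_of_lt_orderOf (by omega) hdlt ((pow_eq_one_iff h hp d).2 hbd)

/-- `A` has prime exponent as soon as it has torsion. -/
theorem pow_eq_one_of_torsion (h : IsSpecialRankOnePair A B) (hab : HasAbelianUnipotents A B)
    {a : G} (ha : a ∈ A) (ha1 : a ≠ 1) (hfin : IsOfFinOrder a) {x : G} (hx : x ∈ A) :
    x ^ orderOf a = 1 := by
  haveI := hab.1
  have hp := prime_orderOf h hab ha ha1 hfin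
  by_contra hne
  have hc : Commute a x := commute_of_isMulCommutative ha hx
  have hx1 : x ≠ 1 := fun e => hne (by rw [e, one_pow])
  have hax : a * x ∈ A := A.mul_mem ha hx
  have hap : (a * x) ^ orderOf a ≠ 1 := by
    rwa [hc.mul_pow, pow_orderOf_eq_one, one_mul]
  obtain ⟨y, hy, hye⟩ := exists_pow_eq h hab hax hap
  obtain ⟨z, hz, hze⟩ := exists_pow_eq h hab hx hne
  have ht : (y * z⁻¹) ^ orderOf a = a := by
    rw [((commute_of_isMulCommutative hy hz).inv_right).mul_pow, inv_pow, hye, hze,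
      mul_inv_cancel_right]
  have htfin : IsOfFinOrder (y * z⁻¹) := by
    refine isOfFinOrder_iff_pow_eq_one.2 ⟨orderOf a * orderOf a, Nat.mul_pos hp.pos hp.pos, ?_⟩
    rw [pow_mul, ht, pow_orderOf_eq_one]
  have ht1 : y * z⁻¹ ≠ 1 := fun e => ha1 (by rw [← ht, e, one_pow])
  have hq := prime_orderOf h hab (A.mul_mem hy (A.inv_mem hz)) ht1 htfin
  have hdvd : orderOf (y * z⁻¹) ∣ orderOf a := by
    have : orderOf (y * z⁻¹) ∣ orderOf a * orderOf a :=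
      orderOf_dvd_of_pow_eq_one (by rw [pow_mul, ht, pow_orderOf_eq_one])
    exact (hq.dvd_mul.1 this).elim id id
  exact ha1 (by rw [← ht]; exact orderOf_dvd_iff_pow_eq_one.1 hdvd)

/-- `A = ⁅A, H⁆` if `A` has more than three elements. -/
theorem le_commutator_diagonal (h : IsSpecialRankOnePair A B) (hab : HasAbelianUnipotents A B)
    (hbig : ∃ a ∈ A, a ≠ 1 ∧ ∃ z ∈ A, z ≠ 1 ∧ z ≠ a ∧ z ≠ a⁻¹) :
    A ≤ ⁅A, rankOneDiagonal A B⁆ := by
  haveI := hab.1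
  haveI := hab.2
  set H := rankOneDiagonal A B with hH
  set A₀ := ⁅A, H⁆ with hA₀
  have hA₀le : A₀ ≤ A := by
    rw [hA₀, Subgroup.commutator_le]
    intro x hx k hk
    rw [commutatorElement_def, show x * k * x⁻¹ * k⁻¹ = x * (k * x⁻¹ * k⁻¹) by group]
    refine A.mul_mem hx ?_
    have := conj_mem_conjBy (g := k) (A.inv_mem hx)
    rwa [conjBy_eq_self_iff.2 hk.1.2] at this
  obtain ⟨a₀, b₀, hp₀⟩ := exists_paired_pair h.1
  set m := a₀ * b₀⁻¹ * a₀ with hm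
  -- `θ(b(a)) ≡ a⁻¹` modulo `⁅A, H⁆`
  have hθ : ∀ a b, Paired A B a b → ∀ x ∈ A,
      m * ((a * b⁻¹ * a)⁻¹ * x * (a * b⁻¹ * a)) * m⁻¹ * x⁻¹ ∈ A₀ := by
    intro a b hp x hx
    have hk : m * (a * b⁻¹ * a)⁻¹ ∈ H := by
      refine ⟨⟨Subgroup.mul_mem _ (weyl_mem hp₀) (Subgroup.inv_mem _ (weyl_mem hp)), ?_⟩, ?_⟩
      · refine conjBy_eq_self_iff.1 ?_
        rw [← conjBy_conjBy, (weyl_swap h hp).2.2.1, (weyl_swap h hp₀).2.1]
      · refine conjBy_eq_self_iff.1 ?_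
        rw [← conjBy_conjBy, (weyl_swap h hp).2.2.2, (weyl_swap h hp₀).1]
    have := Subgroup.inv_mem _ (mem_commutator_of_mem hx hk)
    convert this using 1
    group
  have hθb : ∀ a b, Paired A B a b → m * b * m⁻¹ * a ∈ A₀ := by
    intro a b hp
    have := hθ a b hp a hp.1
    rw [weyl_conj_left h hp] at this
    have h1 : m * b * m⁻¹ ∈ A := by
      have := conj_mem_conjBy (g := m) hp.2.2.1
      rwa [(weyl_swap h hp₀).2.1] at this
    have h2 := A₀.inv_mem this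
    rw [show (m * b⁻¹ * m⁻¹ * a⁻¹)⁻¹ = a * (m * b * m⁻¹) by group] at h2
    rw [(commute_of_isMulCommutative h1 hp.1).eq]
    exact h2
  have hA : ∀ {b}, b ∈ B → m * b * m⁻¹ ∈ A := fun {b} hb => by
    have := conj_mem_conjBy (g := m) hb
    rwa [(weyl_swap h hp₀).2.1] at this
  have key : ∀ a ∈ A, a ≠ 1 → ∀ x ∈ A, x ≠ 1 → x * a ≠ 1 → a * x ^ 2 ∈ A₀ := by
    intro a ha ha1 x hx hx1 hxa
    obtain ⟨b, hp⟩ := exists_paired h.1 ha ha1
    obtain ⟨u, hu⟩ := exists_paired h.1 (A.mul_mem hx ha) hxa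
    set v := ((a * b⁻¹ * a)⁻¹ * x * (a * b⁻¹ * a))⁻¹ with hv
    have hvB : v ∈ B := by
      refine B.inv_mem ?_
      have := conj_mem_conjBy (g := (a * b⁻¹ * a)⁻¹) hx
      rwa [(weyl_swap h hp).2.2.1, inv_inv] at this
    have hv1 : v ≠ 1 := by
      intro e
      rw [hv, inv_eq_one] at e
      apply hx1
      calc x = (a * b⁻¹ * a) * ((a * b⁻¹ * a)⁻¹ * x * (a * b⁻¹ * a)) * (a * b⁻¹ * a)⁻¹ := by group
        _ = 1 := by rw [e]; group
    obtain ⟨r, hr⟩ := exists_paired_right h.1 hvB hv1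
    obtain ⟨w, hw, huw⟩ := special_equation h hp hu hr (inv_inv _).symm
    have h1 := hθb r v hr
    have h2 := hθb _ _ hu
    have h3 := hθb _ _ hw
    have h4 := hθb a b hp
    have h5 := hθ a b hp x hx
    rw [show (a * b⁻¹ * a)⁻¹ * x * (a * b⁻¹ * a) = v⁻¹ from (inv_inv _).symm] at h5
    -- compute in the abelian group `A`
    let U : ↥A := ⟨m * u * m⁻¹, hA hu.2.2.1⟩
    let W : ↥A := ⟨m * w * m⁻¹, hA hw.2.2.1⟩
    let V : ↥A := ⟨m * v * m⁻¹, hA hr.2.2.1⟩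
    let P : ↥A := ⟨a, ha⟩
    let Q : ↥A := ⟨x, hx⟩
    let R : ↥A := ⟨r, hr.1⟩
    have h6 : (((U * (Q * P)) * (W * (P * R)) * ((U * W) * P)⁻¹ * (V * R)⁻¹ *
        (V⁻¹ * Q⁻¹)⁻¹ : ↥A) : G) ∈ A₀ := by
      simp only [Subgroup.coe_mul, Subgroup.coe_inv, U, W, V, P, Q, R]
      have e1 : m * u * m⁻¹ * (m * w * m⁻¹) * a = m * b * m⁻¹ * a := by rw [← huw]; group
      have e2 : (m * v * m⁻¹)⁻¹ * x⁻¹ = m * v⁻¹ * m⁻¹ * x⁻¹ := by group
      rw [e1, e2]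
      exact A₀.mul_mem (A₀.mul_mem (A₀.mul_mem (A₀.mul_mem h2 h3) (A₀.inv_mem h4))
        (A₀.inv_mem h1)) (A₀.inv_mem h5)
    have h7 : (U * (Q * P)) * (W * (P * R)) * ((U * W) * P)⁻¹ * (V * R)⁻¹ * (V⁻¹ * Q⁻¹)⁻¹
        = P * Q ^ 2 := comm_calc U W V P Q R
    rw [h7] at h6
    simpa [P, Q] using h6
  intro y hy
  by_contra hy0
  by_cases hc : ∃ c ∈ A₀, c ≠ 1
  · obtain ⟨c, hc, hc1⟩ := hc
    have hy1 : y ≠ 1 := fun e => hy0 (e ▸ A₀.one_mem)
    have := key y hy hy1 c (hA₀le hc) hc1 (fun e => hy0 (by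
      rw [eq_inv_of_mul_eq_one_right e]; exact A₀.inv_mem hc))
    exact hy0 (by simpa using A₀.mul_mem this (A₀.inv_mem (A₀.pow_mem hc 2)))
  · push Not at hc
    obtain ⟨a, ha, ha1, z, hz, hz1, hza, hzai⟩ := hbig
    have e1 := hc _ (key a ha ha1 z hz hz1 (fun e => hzai (eq_inv_of_mul_eq_one_left e)))
    have e2 := hc _ (key a⁻¹ (A.inv_mem ha) (inv_ne_one.2 ha1) z hz hz1
      (fun e => hza (by simpa using eq_inv_of_mul_eq_one_left e)))
    have e3 := hc _ (key z hz hz1 a ha ha1 (fun e => hzai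
      (eq_inv_of_mul_eq_one_right e)))
    have e4 : a = a⁻¹ := mul_right_cancel (e1.trans e2.symm)
    rw [sq] at e3
    rw [mul_eq_one_iff_eq_inv, mul_inv_rev, ← e4] at e3
    exact hz1 (by rw [e3, mul_eq_one_iff_eq_inv]; exact e4)

theorem sup_le_commutator (h : IsSpecialRankOnePair A B) (hab : HasAbelianUnipotents A B)
    (hbig : ∃ a ∈ A, a ≠ 1 ∧ ∃ z ∈ A, z ≠ 1 ∧ z ≠ a ∧ z ≠ a⁻¹) :
    A ⊔ B ≤ ⁅A ⊔ B, A ⊔ B⁆ := by
  have hA : A ≤ ⁅A ⊔ B, A ⊔ B⁆ := (le_commutator_diagonal h hab hbig).trans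
    (Subgroup.commutator_mono le_sup_left (inf_le_left.trans inf_le_left))
  refine sup_le hA ?_
  obtain ⟨x, hx, hB⟩ := right_mem_unipotent h.1
  calc B = conjBy A x := hB
    _ ≤ conjBy ⁅A ⊔ B, A ⊔ B⁆ x := conjBy_mono hA
    _ = ⁅A ⊔ B, A ⊔ B⁆ := by rw [conjBy_commutator, conjBy_of_mem hx]

end CfsgLib.RootGroups
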