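import Cfsg.Agent.Lib.RootGroups.SharpTwo
import Cfsg.Agent.Lib.RootGroups.NondegClass
import Cfsg.Agent.S5032

/-!
In a degenerate class every rank one pair is special (Timmesfeld, II (2.13)).
-/

set_option autoImplicit false
set_option linter.style.haveILetI false

namespace CfsgLib.RootGroups

open Cfsg

variable {G : Type*} [Group G] {S : Set (Subgroup G)}

theorem commutator_conj_eq_bot {P Q : Subgroup G} (h : ⁅P, Q⁆ = ⊥) (g : G) :
    ⁅conjBy P g, conjBy Q g⁆ = ⊥ := by
  rw [← conjBy_commutator]; exact conjBy_eq_bot.2 h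

/-- Two commuting members with a common partner give special pairs. -/
theorem special_of_common_partner (hS : IsRootSubgroupSet S) {A B C : Subgroup G} (hA : A ∈ S)
    (hB : B ∈ S) (hC : C ∈ S) (hne : C ≠ A) (hAC : ⁅A, C⁆ = ⊥) (hp : IsRankOnePair A B)
    (hq : IsRankOnePair C B) : IsSpecialRankOnePair A B := by
  haveI := hS.commutative A hA
  haveI := hS.commutative B hB
  have hcAC := commutator_eq_bot_iff_forall_commute.1 hAC
  let D : G → G → G := fun y g => g * y * g⁻¹ * y⁻¹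
  -- facts for `y` centralizing `A` with `⁅B ^ y, B⁆ = ⊥`
  have hDB : ∀ y, ⁅conjBy B y, B⁆ = ⊥ → ∀ g ∈ B, ∀ x ∈ B, Commute (D y g) x := by
    intro y hy g hg x hx
    have h1 : Commute (y * g⁻¹ * y⁻¹) x :=
      commutator_eq_bot_iff_forall_commute.1 hy _ (conj_mem_conjBy (B.inv_mem hg)) x hx
    have e : D y g = g * (y * g⁻¹ * y⁻¹) := by simp only [D]; group
    rw [e]
    exact (commute_of_isMulCommutative hg hx).mul_left h1
  have hDhom : ∀ y, ⁅conjBy B y, B⁆ = ⊥ → ∀ g ∈ B, ∀ h ∈ B, D y (g * h) = D y h * D y g := by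
    intro y hy g hg h hh
    have e := (hDB y hy h hh g hg).eq
    simp only [D] at e ⊢
    rw [show g * h * y * (g * h)⁻¹ * y⁻¹ = g * (h * y * h⁻¹ * y⁻¹) * (y * g⁻¹ * y⁻¹) by group, ← e]
    group
  have hperp : ∀ y, (∀ x ∈ A, Commute y x) → ⁅conjBy B y, B⁆ = ⊥ → ∀ g ∈ B, ∀ h ∈ B,
      ⁅conjBy A (D y g), conjBy A (D y h)⁆ = ⊥ := by
    intro y hyA hy g hg h hh
    have base : ∀ g ∈ B, ⁅conjBy A (D y g), A⁆ = ⊥ := by
      intro g hg
      rcases eq_or_ne g 1 with rfl | hg1
      · rw [show D y 1 = 1 by simp [D], conjBy_one]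
        exact commutator_eq_bot_iff_forall_commute.2 fun x hx z hz =>
          commute_of_isMulCommutative hx hz
      obtain ⟨p, hpg⟩ := exists_paired_right hp hg hg1
      have h1 : conjBy A g⁻¹ = conjBy B p⁻¹ := hpg.2.2.2.2
      have h2 : conjBy A (D y g) = conjBy (conjBy B y) (g * p⁻¹) := by
        show conjBy A (g * y * g⁻¹ * y⁻¹) = _
        rw [← conjBy_conjBy, conjBy_of_commute fun x hx => (hyA x hx).inv_left,
          ← conjBy_conjBy, h1, conjBy_conjBy, conjBy_conjBy, mul_assoc, mul_assoc,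
          ((hyA p hpg.1).inv_right).eq]
      have h3 : conjBy B (g * p⁻¹) = A := by rw [← conjBy_conjBy, ← h1, conjBy_cancel_inv]
      have := commutator_conj_eq_bot hy (g * p⁻¹)
      rwa [← h2, h3] at this
    have := commutator_conj_eq_bot (base (g * h⁻¹) (B.mul_mem hg (B.inv_mem hh))) (D y h)
    rwa [conjBy_conjBy, ← hDhom y hy _ (B.mul_mem hg (B.inv_mem hh)) h hh,
      inv_mul_cancel_right] at this
  -- the element producing `C`
  have hzC : ∀ α β γ : G, α ∈ A → γ ∈ C → conjBy A β = conjBy B α → conjBy C β = conjBy B γ →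
      conjBy A (D (α⁻¹ * γ) β⁻¹) = C := by
    intro α β γ hα hγ h1 h2
    have hyA : ∀ x ∈ A, Commute (α⁻¹ * γ) x := fun x hx =>
      ((commute_of_isMulCommutative hα hx).inv_left).mul_left (hcAC x hx γ hγ).symm
    show conjBy A (β⁻¹ * (α⁻¹ * γ) * β⁻¹⁻¹ * (α⁻¹ * γ)⁻¹) = C
    rw [← conjBy_conjBy, conjBy_of_commute fun x hx => (hyA x hx).inv_left, inv_inv,
      ← conjBy_conjBy, h1, conjBy_conjBy, mul_assoc, mul_assoc, (hcAC α hα γ hγ).symm.eq,
      inv_mul_cancel_left, ← conjBy_conjBy, ← h2, conjBy_inv_cancel]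
  have key : ∀ a ∈ A, a ≠ 1 → ∀ b ∈ B, conjBy A b = conjBy B a →
      conjBy A b⁻¹ = conjBy B a⁻¹ := by
    intro a ha ha1 b hb hab
    have hb1 : b ≠ 1 := fun e => hp.ne (by
      rw [e, conjBy_one] at hab
      rw [hab, eq_comm]
      have h := (conjBy_eq_iff.1 hab.symm)
      rwa [conjBy_of_mem (A.inv_mem ha), eq_comm, hab, eq_comm] at h)
    obtain ⟨c', hc'⟩ := exists_paired_right hq (B.inv_mem hb) (inv_ne_one.2 hb1)
    set c := c'⁻¹ with hcdef
    have hc : c ∈ C := C.inv_mem hc'.1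
    have hcb : conjBy C b = conjBy B c := by
      have := hc'.2.2.2.2
      rwa [inv_inv] at this
    obtain ⟨b'', hb''⟩ := exists_paired hp ha ha1
    set b' := b''⁻¹ with hb'def
    have hb' : b' ∈ B := B.inv_mem hb''.2.2.1
    have hab' : conjBy A b' = conjBy B a⁻¹ := hb''.2.2.2.2
    set y := a⁻¹ * c with hydef
    have hac : Commute a c := hcAC a ha c hc
    have hyA : ∀ x ∈ A, Commute y x := fun x hx =>
      ((commute_of_isMulCommutative ha hx).inv_left).mul_left (hcAC x hx c hc).symm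
    have hyiA : ∀ x ∈ A, Commute y⁻¹ x := fun x hx => (hyA x hx).inv_left
    have hyB : ⁅conjBy B y, B⁆ = ⊥ := by
      have h := commutator_conj_eq_bot (commutator_conj_eq_bot
        (P := C) (Q := A) (by rwa [Subgroup.commutator_comm]) b) a⁻¹
      rwa [hcb, hab, conjBy_conjBy, conjBy_inv_cancel] at h
    have hyiB : ⁅conjBy B y⁻¹, B⁆ = ⊥ := by
      have h := commutator_conj_eq_bot hyB y⁻¹
      rwa [conjBy_inv_cancel, Subgroup.commutator_comm] at h
    set z := D y b⁻¹ with hzdef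
    have hz : conjBy A z = C := hzC a b c ha hc hab hcb
    have hzB : ∀ x ∈ B, Commute z x := hDB y hyB b⁻¹ (B.inv_mem hb)
    -- conjugation by `z` carries the pairing of `A` to that of `C`
    have hzL : ∀ α β, β ∈ B → conjBy A β = conjBy B α →
        conjBy C β = conjBy B (z * α * z⁻¹) := by
      intro α β hβ h1
      rw [← hz, conjBy_conjBy, ← (hzB β hβ).eq, ← conjBy_conjBy, h1, conjBy_conjBy]
      conv_rhs => rw [← conjBy_conjBy B (z * α) z⁻¹,
        conjBy_of_commute fun x hx => (hzB x hx).inv_left]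
    have hcz : z * a * z⁻¹ = c := by
      refine conjBy_right_inj hq (hz ▸ conj_mem_conjBy ha) hc ?_
      rw [← hzL a b hb hab, hcb]
    have hcb' : conjBy C b' = conjBy B c⁻¹ := by
      rw [hzL a⁻¹ b' hb' hab', ← hcz]; group
    have hyi : a⁻¹⁻¹ * c⁻¹ = y⁻¹ := by
      rw [hydef, inv_inv a, mul_inv_rev, inv_inv a, hac.inv_right.eq]
    have hC' : conjBy A (D y⁻¹ b'⁻¹) = C :=
      hyi ▸ hzC a⁻¹ b' c⁻¹ (A.inv_mem ha) (C.inv_mem hc) hab' hcb'
    -- `A ^ D(y⁻¹, g) = A ^ D(y, g⁻¹)`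
    have hflip : ∀ g ∈ B, conjBy A (D y⁻¹ g) = conjBy A (D y g⁻¹) := by
      intro g hg
      have hRA : ⁅conjBy A (D y⁻¹ g), A⁆ = ⊥ := by
        have h := hperp y⁻¹ hyiA hyiB g hg 1 B.one_mem
        rwa [show D y⁻¹ 1 = 1 by simp [D], conjBy_one] at h
      have hRC : ⁅conjBy A (D y⁻¹ g), C⁆ = ⊥ := by
        have h := hperp y⁻¹ hyiA hyiB g hg b'⁻¹ (B.inv_mem hb')
        rwa [hC'] at h
      have hR : conjBy (conjBy A (D y⁻¹ g)) y = conjBy A (D y⁻¹ g) :=
        conjBy_of_commute fun x hx =>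
          ((commutator_eq_bot_iff_forall_commute.1 hRA x hx a ha).symm.inv_left).mul_left
            (commutator_eq_bot_iff_forall_commute.1 hRC x hx c hc).symm
      have h1 : conjBy (conjBy A (D y⁻¹ g)) (D y g) = A := by
        conv_lhs => rw [← hR]
        rw [conjBy_conjBy, conjBy_conjBy,
          show D y g * y * D y⁻¹ g = y by simp only [D]; group, conjBy_of_commute hyA]
      have h2 : D y g * D y g⁻¹ = 1 := by
        rw [← hDhom y hyB g⁻¹ (B.inv_mem hg) g hg, inv_mul_cancel]; simp [D]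
      rw [conjBy_eq_iff.1 h1, ← eq_inv_of_mul_eq_one_right h2]
    have hbb : b' * b = 1 := by
      by_contra hg1
      have hgB : b' * b ∈ B := B.mul_mem hb' hb
      have hfix : conjBy A (D y (b' * b)) = A := by
        have h1 := hflip b'⁻¹ (B.inv_mem hb')
        rw [hC', inv_inv] at h1
        rw [hDhom y hyB b' hb' b hb, ← conjBy_conjBy, ← h1, ← hz, conjBy_conjBy, hzdef,
          ← hDhom y hyB b⁻¹ (B.inv_mem hb) b hb, inv_mul_cancel]
        simp [D, conjBy_one]
      obtain ⟨p, hpg⟩ := exists_paired_right hp hgB hg1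
      have h1 : conjBy A (b' * b)⁻¹ = conjBy B p⁻¹ := hpg.2.2.2.2
      have h2 : conjBy A (D y (b' * b)) = conjBy (conjBy B y) (b' * b * p⁻¹) := by
        show conjBy A (b' * b * y * (b' * b)⁻¹ * y⁻¹) = _
        rw [← conjBy_conjBy, conjBy_of_commute hyiA, ← conjBy_conjBy, h1, conjBy_conjBy,
          conjBy_conjBy, mul_assoc, mul_assoc (b' * b), ((hyA p hpg.1).inv_right).eq]
      have h3 : conjBy B (b' * b * p⁻¹) = A := by rw [← conjBy_conjBy, ← h1, conjBy_cancel_inv]
      rw [h2] at hfix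
      have hBy : conjBy B y = B := conjBy_inj.1 (hfix.trans h3.symm)
      have hyc : y * a ∈ C := by
        rw [hydef, mul_assoc, ← hac.eq, inv_mul_cancel_left]; exact hc
      exact hne (eq_of_mul_mem hS hA hB hC hp
        (commute_of_sup hyA (commute_right_of_commute_left hp hyA hBy)) ha ha1 hyc).1
    rw [← eq_inv_of_mul_eq_one_left hbb]
    exact hab'
  refine ⟨hp, fun a ha ha1 b hb hb1 hab => ?_⟩
  have h1 := key a⁻¹ (A.inv_mem ha) (inv_ne_one.2 ha1) b⁻¹ (B.inv_mem hb) hab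
  rw [inv_inv, inv_inv] at h1
  have hab' : Paired A B a b := ⟨ha, ha1, hb, hb1, hab⟩
  have hmem : a * b⁻¹ * a * b * a⁻¹ ∈ B := by
    have h := hab'.conj_left ▸ conj_mem_conjBy (g := a * b⁻¹) ha
    convert h using 1
    group
  have h2 : conjBy A (a * b⁻¹ * a * b * a⁻¹)⁻¹ = conjBy A b := by
    rw [show (a * b⁻¹ * a * b * a⁻¹)⁻¹ = a * (b⁻¹ * (a⁻¹ * (b * a⁻¹))) by group, ← conjBy_conjBy,
      ← conjBy_conjBy, ← conjBy_conjBy, ← conjBy_conjBy, conjBy_of_mem (A.inv_mem ha), h1,
      conjBy_inv_cancel, conjBy_of_mem (B.inv_mem hb)]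
  have h3 := conjBy_right_inj (RankOnePair_symm hp) (B.inv_mem hmem) hb h2
  rw [inv_eq_iff_eq_inv] at h3
  calc b⁻¹ * a * b = a⁻¹ * (a * b⁻¹ * a * b * a⁻¹) * a := by group
    _ = _ := by rw [h3]

/-- The block relation: the same commuting partners. -/
def SameBlock (S : Set (Subgroup G)) (P Q : Subgroup G) : Prop :=
  commutingPartners S P = commutingPartners S Q

theorem commutingPartners_conjBy (hS : IsRootSubgroupSet S) {P E : Subgroup G}
    (h : E ∈ commutingPartners S P) (g : G) : conjBy E g ∈ commutingPartners S (conjBy P g) :=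
  ⟨hS.conj_mem E h.1 g, fun e => h.2.1 (conjBy_inj.1 e), commutator_conj_eq_bot h.2.2 g⟩

theorem SameBlock.conj (hS : IsRootSubgroupSet S) {P Q : Subgroup G} (h : SameBlock S P Q)
    (g : G) : SameBlock S (conjBy P g) (conjBy Q g) := by
  have key : ∀ {P Q : Subgroup G}, SameBlock S P Q →
      commutingPartners S (conjBy P g) ⊆ commutingPartners S (conjBy Q g) := by
    intro P Q h E hE
    have h1 := commutingPartners_conjBy hS hE g⁻¹
    rw [conjBy_inv_cancel, show commutingPartners S P = commutingPartners S Q from h] at h1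
    have h2 := commutingPartners_conjBy hS h1 g
    rwa [conjBy_cancel_inv] at h2
  exact Set.Subset.antisymm (key h) (key h.symm)

theorem mem_commutingPartners_symm {P Q : Subgroup G} (hP : P ∈ S)
    (h : Q ∈ commutingPartners S P) : P ∈ commutingPartners S Q :=
  ⟨hP, h.2.1.symm, by rw [Subgroup.commutator_comm]; exact h.2.2⟩

theorem not_sameBlock_of_commuting {P Q : Subgroup G} (hP : P ∈ S)
    (h : Q ∈ commutingPartners S P) : ¬ SameBlock S P Q := fun hb => by
  rw [show commutingPartners S P = commutingPartners S Q from hb] at h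
  exact h.2.1 rfl

variable (hS : IsRootSubgroupSet S) (hdeg : IsDegenerateRootSet S)
include hS hdeg

theorem commuting_or_rankOne {P Q : Subgroup G} (hP : P ∈ S) (hQ : Q ∈ S) (hne : Q ≠ P) :
    Q ∈ commutingPartners S P ∨ IsRankOnePair P Q := by
  rcases hS.pair P hP Q hQ with h | h | h
  · exact Or.inl ⟨hQ, hne, h⟩
  · exact Or.inr h
  · exact absurd h (hdeg P hP Q hQ)

theorem sameBlock_rankOne {P Q : Subgroup G} (hP : P ∈ S) (hQ : Q ∈ S) (hne : Q ≠ P)
    (h : SameBlock S P Q) : IsRankOnePair P Q :=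
  (commuting_or_rankOne hS hdeg hP hQ hne).resolve_left
    fun hc => not_sameBlock_of_commuting hP hc h

theorem exists_mixed {P Q : Subgroup G} (hP : P ∈ S) (hQ : Q ∈ S) (hp : IsRankOnePair P Q)
    (h : ¬ SameBlock S P Q) : ∃ C ∈ commutingPartners S P, IsRankOnePair C Q := by
  have key : ∀ {P Q : Subgroup G}, Q ∈ S → IsRankOnePair P Q →
      ¬ commutingPartners S P ⊆ commutingPartners S Q →
      ∃ C ∈ commutingPartners S P, IsRankOnePair C Q := by
    intro P Q hQ hp hsub
    obtain ⟨C, hC, hC'⟩ := Set.not_subset.1 hsub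
    have hne : C ≠ Q := fun e => commutator_ne_bot hp (e ▸ hC.2.2)
    exact ⟨C, hC, RankOnePair_symm ((commuting_or_rankOne hS hdeg hQ hC.1 hne).resolve_left hC')⟩
  by_cases hsub : commutingPartners S P ⊆ commutingPartners S Q
  · obtain ⟨C, hC, hCP⟩ := key hP (RankOnePair_symm hp) fun h' => h (hsub.antisymm h')
    -- swap `P` and `Q`
    obtain ⟨x, -, hx1, hx2⟩ :=
      exists_conj_pair hp (right_mem_unipotent hp) (left_mem_unipotent P Q) hp.ne.symm
    refine ⟨conjBy C x, ?_, ?_⟩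
    · have := commutingPartners_conjBy hS hC x
      rwa [hx2] at this
    · have := isRankOnePair_conjBy hCP x
      rwa [hx1] at this
  · exact key hQ hp hsub

theorem special_of_not_sameBlock {P Q : Subgroup G} (hP : P ∈ S) (hQ : Q ∈ S)
    (hp : IsRankOnePair P Q) (h : ¬ SameBlock S P Q) : IsSpecialRankOnePair P Q := by
  obtain ⟨C, hC, hCQ⟩ := exists_mixed hS hdeg hP hQ hp h
  exact special_of_common_partner hS hP hQ hC.1 hC.2.1 hC.2.2 hp hCQ

omit hdeg in
theorem eq_one_of_conj_sameBlock {P E : Subgroup G} (hp : IsRankOnePair P E)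
    (h : ¬ SameBlock S P E) {x : G} (hx : x ∈ P) (hb : SameBlock S (conjBy E x) E) : x = 1 := by
  by_contra hx1
  have hne : conjBy E x ≠ E := fun e => hx1 (eq_one_of_mem_normalizer hp hx e)
  obtain ⟨y, -, hy1, hy2⟩ :=
    exists_conj_pair hp (conjBy_right_mem hp hx) (right_mem_unipotent hp) hne
  have h1 := hb.conj hS y⁻¹
  conv at h1 => arg 2; rw [← hy1, conjBy_inv_cancel]
  conv at h1 => arg 3; rw [← hy2, conjBy_inv_cancel]
  exact h h1

end CfsgLib.RootGroups
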